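import Cfsg.Agent.SLn.Basic
import Cfsg.Prelude.Def_RootSubgroups
set_option autoImplicit false

/-!
Transvection groups of the special linear group as abstract root subgroups.
-/

namespace CfsgLib.RootTv

open Matrix

variable {ι k : Type*} [Field k] [Fintype ι] [DecidableEq ι]

/-- The transvection `1 + v ⊗ f`, or the identity if `f` does not vanish on `v`. -/
noncomputable def tv (v f : ι → k) : Matrix.SpecialLinearGroup ι k :=
  haveI := Classical.propDecidable (f ⬝ᵥ v = 0)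
  ⟨if f ⬝ᵥ v = 0 then 1 + vecMulVec v f else 1, by
    split
    · rename_i h
      rw [vecMulVec_eq Unit, det_one_add_replicateCol_mul_replicateRow, h, add_zero]
    · exact det_one⟩

theorem coe_tv {v f : ι → k} (h : f ⬝ᵥ v = 0) : (tv v f : Matrix ι ι k) = 1 + vecMulVec v f := if_pos h

theorem tv_mul {v f : ι → k} (h : f ⬝ᵥ v = 0) (c d : k) :
    tv (c • v) f * tv (d • v) f = tv ((c + d) • v) f := by
  refine Subtype.ext ((Matrix.SpecialLinearGroup.coe_mul _ _).trans ?_)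
  rw [coe_tv (by simp [h]), coe_tv (by simp [h]), coe_tv (by simp [h])]
  simp [mul_add, add_mul, smul_vecMulVec, add_vecMulVec, vecMulVec_mul_vecMulVec, h, add_smul, add_assoc]

theorem tv_zero {f : ι → k} : tv (0 : ι → k) f = 1 := by
  refine Subtype.ext ?_
  rw [coe_tv (by simp)]
  simp

/-- The parametrisation of a root group. -/
noncomputable def rhom {v f : ι → k} (h : f ⬝ᵥ v = 0) : Multiplicative k →* Matrix.SpecialLinearGroup ι k where
  toFun c := tv (c.toAdd • v) f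
  map_one' := by simp [tv_zero]
  map_mul' c d := by rw [toAdd_mul, tv_mul h]

/-- The root group attached to an incident point and hyperplane. -/
noncomputable def R (v f : ι → k) : Subgroup (Matrix.SpecialLinearGroup ι k) :=
  Subgroup.closure (Set.range fun c : k => tv (c • v) f)

theorem mem_R {v f : ι → k} (h : f ⬝ᵥ v = 0) {t : Matrix.SpecialLinearGroup ι k} :
    t ∈ R v f ↔ ∃ c : k, t = tv (c • v) f := by
  constructor
  · intro ht
    have hle : R v f ≤ (rhom h).range := by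
      rw [R, Subgroup.closure_le]
      rintro _ ⟨c, rfl⟩
      exact ⟨Multiplicative.ofAdd c, rfl⟩
    obtain ⟨c, rfl⟩ := hle ht
    exact ⟨c.toAdd, rfl⟩
  · rintro ⟨c, rfl⟩
    exact Subgroup.subset_closure ⟨c, rfl⟩

theorem tv_mem_R {v f : ι → k} (c : k) : tv (c • v) f ∈ R v f := Subgroup.subset_closure ⟨c, rfl⟩

theorem R_comm {v f : ι → k} (h : f ⬝ᵥ v = 0) : IsMulCommutative (R v f) := by
  refine ⟨⟨fun a b => Subtype.ext ?_⟩⟩
  obtain ⟨c, hc⟩ := (mem_R h).mp a.2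
  obtain ⟨d, hd⟩ := (mem_R h).mp b.2
  rw [Subgroup.coe_mul, Subgroup.coe_mul, hc, hd, tv_mul h, tv_mul h, add_comm]

theorem outer_inj {v f v' f' : ι → k} (hf' : f' ≠ 0) (e : vecMulVec v' f' = vecMulVec v f) :
    ∃ c : k, v' = c • v := by
  obtain ⟨j, hj⟩ := Function.ne_iff.mp hf'
  refine ⟨f j / f' j, funext fun i => ?_⟩
  have := congrFun (congrFun e i) j
  simp only [vecMulVec_apply] at this
  simp only [Pi.smul_apply, smul_eq_mul]
  field_simp [show f' j ≠ 0 from hj]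
  linear_combination this

theorem tv_inj_one {v f : ι → k} (h : f ⬝ᵥ v = 0) (e : tv v f = 1) : v = 0 ∨ f = 0 := by
  have e' := congrArg (fun t : Matrix.SpecialLinearGroup ι k => (t : Matrix ι ι k)) e
  simp only [coe_tv h, Matrix.SpecialLinearGroup.coe_one, add_eq_left] at e'
  by_contra hh
  push Not at hh
  obtain ⟨i, hi⟩ := Function.ne_iff.mp hh.1
  obtain ⟨j, hj⟩ := Function.ne_iff.mp hh.2
  have e2 := congrFun (congrFun e' i) j
  simp [vecMulVec_apply] at e2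
  exact e2.elim hi hj

theorem tv_ne_one {v f : ι → k} (h : f ⬝ᵥ v = 0) (hv : v ≠ 0) (hf : f ≠ 0) {c : k} (hc : c ≠ 0) :
    tv (c • v) f ≠ 1 := fun e => by
  rcases tv_inj_one (by simp [h]) e with h1 | h1
  · exact hv (smul_eq_zero.mp h1 |>.resolve_left hc)
  · exact hf h1

theorem conj_tv (g : Matrix.SpecialLinearGroup ι k) {v f : ι → k} (h : f ⬝ᵥ v = 0) :
    g * tv v f * g⁻¹ = tv ((g : Matrix ι ι k) *ᵥ v) (f ᵥ* ((g⁻¹ : Matrix.SpecialLinearGroup ι k) : Matrix ι ι k)) := by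
  have hg : ((g⁻¹ : Matrix.SpecialLinearGroup ι k) : Matrix ι ι k) * (g : Matrix ι ι k) = 1 := by
    rw [← Matrix.SpecialLinearGroup.coe_mul, inv_mul_cancel, Matrix.SpecialLinearGroup.coe_one]
  have hg' : (g : Matrix ι ι k) * ((g⁻¹ : Matrix.SpecialLinearGroup ι k) : Matrix ι ι k) = 1 := by
    rw [← Matrix.SpecialLinearGroup.coe_mul, mul_inv_cancel, Matrix.SpecialLinearGroup.coe_one]
  refine Subtype.ext ?_
  rw [Matrix.SpecialLinearGroup.coe_mul, Matrix.SpecialLinearGroup.coe_mul, coe_tv h,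
    coe_tv (by rw [dotProduct_mulVec, vecMul_vecMul, hg, vecMul_one, h]),
    mul_add, add_mul, mul_one, hg', mul_vecMulVec, vecMulVec_mul]

theorem incident_conj (g : Matrix.SpecialLinearGroup ι k) {v f : ι → k} (h : f ⬝ᵥ v = 0) :
    (f ᵥ* ((g⁻¹ : Matrix.SpecialLinearGroup ι k) : Matrix ι ι k)) ⬝ᵥ ((g : Matrix ι ι k) *ᵥ v) = 0 := by
  rw [dotProduct_mulVec, vecMul_vecMul, ← Matrix.SpecialLinearGroup.coe_mul, inv_mul_cancel,
    Matrix.SpecialLinearGroup.coe_one, vecMul_one, h]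

theorem conj_R (g : Matrix.SpecialLinearGroup ι k) {v f : ι → k} (h : f ⬝ᵥ v = 0) :
    Cfsg.conjBy (R v f) g = R ((g : Matrix ι ι k) *ᵥ v) (f ᵥ* ((g⁻¹ : Matrix.SpecialLinearGroup ι k) : Matrix ι ι k)) := by
  rw [R, R, Cfsg.conjBy, MonoidHom.map_closure, ← Set.range_comp]
  congr 1
  refine congrArg Set.range (funext fun c => ?_)
  show g * tv (c • v) f * g⁻¹ = _
  rw [conj_tv g (by simp [h]), mulVec_smul]

theorem R_smul_left {v f : ι → k} {c : k} (hc : c ≠ 0) : R (c • v) f = R v f := by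
  refine le_antisymm ?_ ?_ <;> rw [R, Subgroup.closure_le] <;> rintro _ ⟨d, rfl⟩
  · simp only [smul_smul]; exact tv_mem_R _
  · have := tv_mem_R (v := c • v) (f := f) (d / c)
    simpa [smul_smul, div_mul_cancel₀ d hc] using this

theorem tv_smul_comm {v f : ι → k} (h : f ⬝ᵥ v = 0) (c : k) : tv v (c • f) = tv (c • v) f := by
  refine Subtype.ext ?_
  rw [coe_tv (by simp [h]), coe_tv (by simp [h]), smul_vecMulVec, vecMulVec_smul]

theorem R_smul_right {v f : ι → k} (h : f ⬝ᵥ v = 0) {c : k} (hc : c ≠ 0) : R v (c • f) = R v f := by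
  refine le_antisymm ?_ ?_ <;> rw [R, Subgroup.closure_le] <;> rintro _ ⟨d, rfl⟩
  · show tv (d • v) (c • f) ∈ R v f
    rw [tv_smul_comm (by simp [h]), smul_smul]
    exact tv_mem_R _
  · show tv (d • v) f ∈ R v (c • f)
    have h1 : tv ((d / c) • v) (c • f) = tv (d • v) f := by
      rw [tv_smul_comm (by simp [h]), smul_smul, mul_div_cancel₀ d hc]
    exact h1 ▸ tv_mem_R _

theorem R_inj {v f v' f' : ι → k} (h : f ⬝ᵥ v = 0) (h' : f' ⬝ᵥ v' = 0) (hf' : f' ≠ 0)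
    (e : R v' f' = R v f) : ∃ c : k, v' = c • v := by
  obtain ⟨c, hc⟩ := (mem_R h).mp (e ▸ (tv_mem_R (1 : k) : tv ((1 : k) • v') f' ∈ R v' f'))
  have hc' := congrArg (fun t : Matrix.SpecialLinearGroup ι k => (t : Matrix ι ι k)) hc
  simp only [coe_tv (show f ⬝ᵥ c • v = 0 by simp [h]), coe_tv (show f' ⬝ᵥ (1 : k) • v' = 0 by simp [h']),
    add_right_inj] at hc'
  rw [one_smul] at hc'
  obtain ⟨d, hd⟩ := outer_inj hf' hc'
  exact ⟨d * c, by rw [hd, smul_smul]⟩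

/-! ### Linear algebra -/

theorem exists_dot {u w : ι → k} (hu : u ≠ 0) (hind : ∀ c : k, w ≠ c • u) (a b : k) :
    ∃ y : ι → k, u ⬝ᵥ y = a ∧ w ⬝ᵥ y = b := by
  obtain ⟨i, hi⟩ := Function.ne_iff.mp hu
  have hi' : u i ≠ 0 := hi
  obtain ⟨j, hj⟩ : ∃ j, u i * w j - u j * w i ≠ 0 := by
    by_contra hcon
    push Not at hcon
    refine hind (w i / u i) (funext fun j => ?_)
    have := hcon j
    simp only [Pi.smul_apply, smul_eq_mul]
    field_simp
    linear_combination this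
  refine ⟨((a * w j - b * u j) / (u i * w j - u j * w i)) • (Pi.single i 1 : ι → k) +
    ((b * u i - a * w i) / (u i * w j - u j * w i)) • (Pi.single j 1 : ι → k), ?_, ?_⟩
  · simp only [dotProduct_add, dotProduct_smul, dotProduct_single, mul_one, smul_eq_mul]
    rw [div_mul_eq_mul_div, div_mul_eq_mul_div, ← add_div, div_eq_iff hj]; ring
  · simp only [dotProduct_add, dotProduct_smul, dotProduct_single, mul_one, smul_eq_mul]
    rw [div_mul_eq_mul_div, div_mul_eq_mul_div, ← add_div, div_eq_iff hj]; ring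

theorem exists_dot_one {u : ι → k} (hu : u ≠ 0) : ∃ y : ι → k, u ⬝ᵥ y = 1 := by
  obtain ⟨i, hi⟩ := Function.ne_iff.mp hu
  exact ⟨(u i)⁻¹ • (Pi.single i 1 : ι → k), by simp [show u i ≠ 0 from hi]⟩

variable (hι : 3 ≤ Fintype.card ι)
include hι

theorem exists_indep {v f : ι → k} (hv : v ≠ 0) (hf : f ≠ 0) :
    ∃ f' : ι → k, f' ⬝ᵥ v = 0 ∧ f' ≠ 0 ∧ ∀ c : k, f' ≠ c • f := by
  obtain ⟨i, hi⟩ := Function.ne_iff.mp hv
  have hcard : 2 ≤ (Finset.univ.erase i).card := by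
    rw [Finset.card_erase_of_mem (Finset.mem_univ _), Finset.card_univ]; omega
  obtain ⟨j, hj, l, hl, hjl⟩ := Finset.one_lt_card.mp (by omega : 1 < (Finset.univ.erase i).card)
  have hji := Finset.ne_of_mem_erase hj
  have hli := Finset.ne_of_mem_erase hl
  let φ : ι → ι → k := fun j => v j • (Pi.single i 1 : ι → k) - v i • (Pi.single j 1 : ι → k)
  have hφv : ∀ j, φ j ⬝ᵥ v = 0 := fun j => by
    simp [φ, sub_dotProduct, mul_comm]
  have hφj : ∀ j, j ≠ i → φ j j = - v i := fun j hj => by simp [φ, hj]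
  have hne : ∀ j, j ≠ i → φ j ≠ 0 := fun j hj e => hi (neg_eq_zero.mp ((hφj j hj).symm.trans (congrFun e j)))
  by_contra hcon
  push Not at hcon
  obtain ⟨c, hc⟩ := hcon (φ j) (hφv j) (hne j hji)
  obtain ⟨d, hd⟩ := hcon (φ l) (hφv l) (hne l hli)
  have h1 : c * f j = - v i := (congrFun hc j).symm.trans (hφj j hji)
  have h2 : d * f j = 0 := (congrFun hd j).symm.trans (by simp [φ, hji, hjl, hjl.symm])
  have h3 : f j ≠ 0 := fun e => hi (neg_eq_zero.mp (by rw [← h1, e, mul_zero]))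
  have h4 : d = 0 := (mul_eq_zero.mp h2).resolve_right h3
  exact hne l hli (by rw [hd, h4, zero_smul])

theorem exists_fix_move {v f f' : ι → k} (hv : v ≠ 0) (hf : f ≠ 0) (hf' : f' ≠ 0) (h : f ⬝ᵥ v = 0) (h' : f' ⬝ᵥ v = 0) :
    ∃ g : Matrix.SpecialLinearGroup ι k, (g : Matrix ι ι k) *ᵥ v = v ∧ f' ᵥ* (g : Matrix ι ι k) = f := by
  have key : ∀ a b : ι → k, a ⬝ᵥ v = 0 → b ⬝ᵥ v = 0 → a ≠ 0 → (∀ c : k, b ≠ c • a) →
      ∃ g : Matrix.SpecialLinearGroup ι k, (g : Matrix ι ι k) *ᵥ v = v ∧ a ᵥ* (g : Matrix ι ι k) = b := by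
    intro a b ha hb ha0 hind
    obtain ⟨x, hxa, hxb⟩ := exists_dot ha0 hind 1 1
    have hx : (b - a) ⬝ᵥ x = 0 := by rw [sub_dotProduct, hxa, hxb, sub_self]
    refine ⟨tv x (b - a), ?_, ?_⟩
    · rw [coe_tv hx, add_mulVec, one_mulVec, vecMulVec_mulVec, sub_dotProduct, ha, hb, sub_self]
      simp
    · rw [coe_tv hx, vecMul_add, vecMul_one, vecMul_vecMulVec, hxa, one_smul, add_sub_cancel]
  by_cases hd : ∀ c : k, f ≠ c • f'
  · exact key f' f h' h hf' hd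
  push Not at hd
  obtain ⟨c, hc⟩ := hd
  obtain ⟨f'', h'', hf'', hind⟩ := exists_indep hι hv hf'
  obtain ⟨g1, g1v, g1f⟩ := key f' f'' h' h'' hf' hind
  obtain ⟨g2, g2v, g2f⟩ := key f'' f h'' h hf'' fun d e => by
    have hd0 : d ≠ 0 := fun e' => hf (by rw [e, e', zero_smul])
    exact hind (d⁻¹ * c) (by rw [← smul_smul, ← hc, e, smul_smul, inv_mul_cancel₀ hd0, one_smul])
  exact ⟨g1 * g2, by rw [Matrix.SpecialLinearGroup.coe_mul, ← mulVec_mulVec, g2v, g1v],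
    by rw [Matrix.SpecialLinearGroup.coe_mul, ← vecMul_vecMul, g1f, g2f]⟩

/-- Transitivity on non-degenerate incident pairs. -/
theorem exists_move {v f v' f' : ι → k} (hv : v ≠ 0) (hf : f ≠ 0) (h : f ⬝ᵥ v = 0)
    (hv' : v' ≠ 0) (hf' : f' ≠ 0) (h' : f' ⬝ᵥ v' = 0) :
    ∃ g : Matrix.SpecialLinearGroup ι k, (g : Matrix ι ι k) *ᵥ v = v' ∧
      f ᵥ* ((g⁻¹ : Matrix.SpecialLinearGroup ι k) : Matrix ι ι k) = f' := by
  haveI : Nontrivial ι := Fintype.one_lt_card_iff_nontrivial.mp (by omega)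
  obtain ⟨g, hg⟩ := CfsgLib.SLn.exists_smul_eq hv hv'
  have hg' : (g : Matrix ι ι k) *ᵥ v = v' := hg
  have h1 := incident_conj g h
  rw [hg'] at h1
  have h2 : f ᵥ* ((g⁻¹ : Matrix.SpecialLinearGroup ι k) : Matrix ι ι k) ≠ 0 := fun e => hf (by
    have := congrArg (· ᵥ* (g : Matrix ι ι k)) e
    simp only [zero_vecMul, vecMul_vecMul, ← Matrix.SpecialLinearGroup.coe_mul, inv_mul_cancel, Matrix.SpecialLinearGroup.coe_one, vecMul_one] at this
    exact this)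
  obtain ⟨g', g'v, g'f⟩ := exists_fix_move hι hv' h2 hf' h1 h'
  refine ⟨g' * g, by rw [Matrix.SpecialLinearGroup.coe_mul, ← mulVec_mulVec, hg', g'v], ?_⟩
  rw [_root_.mul_inv_rev, Matrix.SpecialLinearGroup.coe_mul, ← vecMul_vecMul, ← g'f, vecMul_vecMul,
    ← Matrix.SpecialLinearGroup.coe_mul, mul_inv_cancel, Matrix.SpecialLinearGroup.coe_one, vecMul_one]

omit hι

/-! ### Pairs -/

/-- The matrix of the embedded copy of `SL₂`. -/
def pmat (v f w g : ι → k) (M : Matrix (Fin 2) (Fin 2) k) : Matrix ι ι k :=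
  1 + ((M 0 0 - 1) • vecMulVec v g + M 0 1 • vecMulVec v f + M 1 0 • vecMulVec w g + (M 1 1 - 1) • vecMulVec w f)

variable {v f w g : ι → k}

theorem pmat_mul (hfv : f ⬝ᵥ v = 0) (hfw : f ⬝ᵥ w = 1) (hgv : g ⬝ᵥ v = 1) (hgw : g ⬝ᵥ w = 0)
    (M N : Matrix (Fin 2) (Fin 2) k) : pmat v f w g (M * N) = pmat v f w g M * pmat v f w g N := by
  simp only [pmat, Matrix.mul_apply, Fin.sum_univ_two, mul_add, add_mul, mul_one, one_mul, smul_mul_assoc,
    mul_smul_comm, vecMulVec_mul_vecMulVec, hfv, hfw, hgv, hgw, zero_smul, one_smul, vecMulVec_zero, smul_zero,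
    add_zero, zero_add]
  module

theorem pmat_one : pmat v f w g 1 = 1 := by simp [pmat]

/-- The embedding of `SL₂` into `GL`. -/
noncomputable def pGL (hfv : f ⬝ᵥ v = 0) (hfw : f ⬝ᵥ w = 1) (hgv : g ⬝ᵥ v = 1) (hgw : g ⬝ᵥ w = 0) :
    Matrix.SpecialLinearGroup (Fin 2) k →* Matrix ι ι k where
  toFun M := pmat v f w g (M : Matrix (Fin 2) (Fin 2) k)
  map_one' := by rw [Matrix.SpecialLinearGroup.coe_one, pmat_one]
  map_mul' M N := by rw [Matrix.SpecialLinearGroup.coe_mul, pmat_mul hfv hfw hgv hgw]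

theorem pGL_det (hfv : f ⬝ᵥ v = 0) (hfw : f ⬝ᵥ w = 1) (hgv : g ⬝ᵥ v = 1) (hgw : g ⬝ᵥ w = 0)
    (M : Matrix.SpecialLinearGroup (Fin 2) k) : (pGL hfv hfw hgv hgw M).det = 1 := by
  let D : Matrix.SpecialLinearGroup (Fin 2) k →* k :=
    { toFun := fun M => (pGL hfv hfw hgv hgw M).det
      map_one' := by rw [map_one, det_one]
      map_mul' := fun A B => by rw [map_mul, det_mul] }
  refine Subgroup.closure_induction (p := fun M _ => D M = 1) ?_ (map_one D) (fun a b _ _ ha hb => by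
    rw [map_mul, ha, hb, one_mul]) (fun a _ ha => by
    have := map_mul D a⁻¹ a
    rwa [inv_mul_cancel, map_one, ha, mul_one, eq_comm] at this)
    (CfsgLib.SLn.closure_transvections (ι := Fin 2) (F := k) ▸ Subgroup.mem_top M)
  rintro _ ⟨i, j, hij, c, rfl⟩
  show (pmat v f w g _).det = 1
  fin_cases i <;> fin_cases j
  · exact absurd rfl hij
  · simp [pmat, Matrix.SpecialLinearGroup.transvection_coe, smul_vecMulVec]
    rw [← smul_vecMulVec, vecMulVec_eq Unit, det_one_add_replicateCol_mul_replicateRow]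
    simp [hfv]
  · simp [pmat, Matrix.SpecialLinearGroup.transvection_coe, smul_vecMulVec]
    rw [← smul_vecMulVec, vecMulVec_eq Unit, det_one_add_replicateCol_mul_replicateRow]
    simp [hgw]
  · exact absurd rfl hij

/-- The embedding of `SL₂` attached to a normalised opposite pair. -/
noncomputable def pSL (hfv : f ⬝ᵥ v = 0) (hfw : f ⬝ᵥ w = 1) (hgv : g ⬝ᵥ v = 1) (hgw : g ⬝ᵥ w = 0) :
    Matrix.SpecialLinearGroup (Fin 2) k →* Matrix.SpecialLinearGroup ι k where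
  toFun M := ⟨pGL hfv hfw hgv hgw M, pGL_det hfv hfw hgv hgw M⟩
  map_one' := Subtype.ext (map_one _)
  map_mul' M N := Subtype.ext (map_mul (pGL hfv hfw hgv hgw) M N)

theorem pSL_coe (hfv : f ⬝ᵥ v = 0) (hfw : f ⬝ᵥ w = 1) (hgv : g ⬝ᵥ v = 1) (hgw : g ⬝ᵥ w = 0)
    (M : Matrix.SpecialLinearGroup (Fin 2) k) :
    (pSL hfv hfw hgv hgw M : Matrix ι ι k) = pmat v f w g (M : Matrix (Fin 2) (Fin 2) k) := rfl

theorem pSL_upper (hfv : f ⬝ᵥ v = 0) (hfw : f ⬝ᵥ w = 1) (hgv : g ⬝ᵥ v = 1) (hgw : g ⬝ᵥ w = 0)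
    {M : Matrix.SpecialLinearGroup (Fin 2) k} (h10 : (M : Matrix (Fin 2) (Fin 2) k) 1 0 = 0)
    (h00 : (M : Matrix (Fin 2) (Fin 2) k) 0 0 = 1) (h11 : (M : Matrix (Fin 2) (Fin 2) k) 1 1 = 1) :
    pSL hfv hfw hgv hgw M = tv ((M : Matrix (Fin 2) (Fin 2) k) 0 1 • v) f := by
  refine Subtype.ext ?_
  rw [pSL_coe, coe_tv (by simp [hfv]), pmat, h10, h00, h11]
  simp [smul_vecMulVec]

theorem pSL_lower (hfv : f ⬝ᵥ v = 0) (hfw : f ⬝ᵥ w = 1) (hgv : g ⬝ᵥ v = 1) (hgw : g ⬝ᵥ w = 0)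
    {M : Matrix.SpecialLinearGroup (Fin 2) k} (h01 : (M : Matrix (Fin 2) (Fin 2) k) 0 1 = 0)
    (h00 : (M : Matrix (Fin 2) (Fin 2) k) 0 0 = 1) (h11 : (M : Matrix (Fin 2) (Fin 2) k) 1 1 = 1) :
    pSL hfv hfw hgv hgw M = tv ((M : Matrix (Fin 2) (Fin 2) k) 1 0 • w) g := by
  refine Subtype.ext ?_
  rw [pSL_coe, coe_tv (by simp [hgw]), pmat, h01, h00, h11]
  simp [smul_vecMulVec]

/-- A normalised opposite pair generates an image of `SL₂`. -/
theorem psl2_pair (hfv : f ⬝ᵥ v = 0) (hfw : f ⬝ᵥ w = 1) (hgv : g ⬝ᵥ v = 1) (hgw : g ⬝ᵥ w = 0) :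
    Cfsg.IsPSL2PairOver k (R v f) (R w g) := by
  set φ := pSL hfv hfw hgv hgw
  have hU : (Cfsg.upperUnipotentSL2 k).map φ = R v f := by
    rw [Cfsg.upperUnipotentSL2, MonoidHom.map_closure, R]
    congr 1
    ext t
    constructor
    · rintro ⟨M, ⟨h1, h2, h3⟩, rfl⟩
      exact ⟨_, (pSL_upper hfv hfw hgv hgw h1 h2 h3).symm⟩
    · rintro ⟨c, rfl⟩
      refine ⟨Matrix.SpecialLinearGroup.transvection (Fin.zero_ne_one) c, ?_, ?_⟩
      · simp [Matrix.SpecialLinearGroup.transvection_coe]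
      · rw [pSL_upper hfv hfw hgv hgw] <;> simp [Matrix.SpecialLinearGroup.transvection_coe]
  have hL : (Cfsg.lowerUnipotentSL2 k).map φ = R w g := by
    rw [Cfsg.lowerUnipotentSL2, MonoidHom.map_closure, R]
    congr 1
    ext t
    constructor
    · rintro ⟨M, ⟨h1, h2, h3⟩, rfl⟩
      exact ⟨_, (pSL_lower hfv hfw hgv hgw h1 h2 h3).symm⟩
    · rintro ⟨c, rfl⟩
      refine ⟨Matrix.SpecialLinearGroup.transvection (Fin.zero_ne_one).symm c, ?_, ?_⟩
      · simp [Matrix.SpecialLinearGroup.transvection_coe]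
      · rw [pSL_lower hfv hfw hgv hgw] <;> simp [Matrix.SpecialLinearGroup.transvection_coe]
  refine ⟨φ, ?_, ?_, hU, hL⟩
  · have htop : Cfsg.upperUnipotentSL2 k ⊔ Cfsg.lowerUnipotentSL2 k = ⊤ := by
      refine CfsgLib.SLn.eq_top_of_transvection _ fun i j hij c => ?_
      fin_cases i <;> fin_cases j
      · exact absurd rfl hij
      · exact Subgroup.mem_sup_left (Subgroup.subset_closure
          (by simp [Matrix.SpecialLinearGroup.transvection_coe]))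
      · exact Subgroup.mem_sup_right (Subgroup.subset_closure
          (by simp [Matrix.SpecialLinearGroup.transvection_coe]))
      · exact absurd rfl hij
    rw [← hU, ← hL, ← Subgroup.map_sup, htop, ← MonoidHom.range_eq_map]
  · intro M hM
    have h1 : pmat v f w g (M : Matrix (Fin 2) (Fin 2) k) = 1 := congrArg (fun t : Matrix.SpecialLinearGroup ι k => (t : Matrix ι ι k)) (MonoidHom.mem_ker.mp hM)
    rw [pmat, add_eq_left] at h1
    set X : Matrix (Fin 2) (Fin 2) k := (M : Matrix (Fin 2) (Fin 2) k) with hX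
    have hv : v ≠ 0 := fun e => by rw [e, dotProduct_zero] at hgv; exact zero_ne_one hgv
    have hw : w ≠ 0 := fun e => by rw [e, dotProduct_zero] at hfw; exact zero_ne_one hfw
    have hv' := congrArg (fun Y : Matrix ι ι k => Y *ᵥ v) h1
    have hw' := congrArg (fun Y : Matrix ι ι k => Y *ᵥ w) h1
    simp only [add_mulVec, smul_mulVec, vecMulVec_mulVec, hfv, hfw, hgv, hgw, zero_mulVec,
      MulOpposite.op_zero, MulOpposite.op_one, zero_smul, one_smul, smul_zero, add_zero, zero_add] at hv' hw'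
    have e1 : (X 0 0 - 1) = 0 ∧ X 1 0 = 0 := by
      have h2 := congrArg (g ⬝ᵥ ·) hv'
      have h3 := congrArg (f ⬝ᵥ ·) hv'
      simp [dotProduct_add, dotProduct_smul, hfv, hfw, hgv, hgw] at h2 h3
      exact ⟨h2, h3⟩
    have e2 : (X 1 1 - 1) = 0 ∧ X 0 1 = 0 := by
      have h2 := congrArg (g ⬝ᵥ ·) hw'
      have h3 := congrArg (f ⬝ᵥ ·) hw'
      simp [dotProduct_add, dotProduct_smul, hfv, hfw, hgv, hgw] at h2 h3
      exact ⟨h3, h2⟩
    have : M = 1 := by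
      refine Subtype.ext (Matrix.ext fun i j => ?_)
      fin_cases i <;> fin_cases j
      · simpa using sub_eq_zero.mp e1.1
      · simpa using e2.2
      · simpa using e1.2
      · simpa using sub_eq_zero.mp e2.1
    rw [this]; exact one_mem _

theorem R_ne_normal (hfv : f ⬝ᵥ v = 0) (hfw : f ⬝ᵥ w = 1) (hgw : g ⬝ᵥ w = 0) (hg : g ≠ 0) : R v f ≠ R w g := by
  intro e
  obtain ⟨c, hc⟩ := R_inj hfv hgw hg e.symm
  rw [hc, dotProduct_smul, hfv, smul_zero] at hfw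
  exact zero_ne_one hfw

theorem rankOneCondition (hfv : f ⬝ᵥ v = 0) (hfw : f ⬝ᵥ w = 1) (hgv : g ⬝ᵥ v = 1) (hgw : g ⬝ᵥ w = 0) :
    Cfsg.RankOneCondition (R v f) (R w g) := by
  intro a ha ha1
  obtain ⟨c, rfl⟩ := (mem_R hfv).mp ha
  have hc : c ≠ 0 := fun e => ha1 (by rw [e, zero_smul, tv_zero])
  have hw0 : w ≠ 0 := fun e => by rw [e, dotProduct_zero] at hfw; exact zero_ne_one hfw
  have hg0 : g ≠ 0 := fun e => by rw [e, zero_dotProduct] at hgv; exact zero_ne_one hgv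
  refine ⟨tv (c⁻¹ • w) g, tv_mem_R _, tv_ne_one hgw hw0 hg0 (inv_ne_zero hc), ?_⟩
  have hb : (tv (c⁻¹ • w) g)⁻¹ = tv ((-c⁻¹) • w) g :=
    inv_eq_of_mul_eq_one_right (by rw [tv_mul hgw, add_neg_cancel, zero_smul, tv_zero])
  have ha' : (tv (c • v) f)⁻¹ = tv ((-c) • v) f :=
    inv_eq_of_mul_eq_one_right (by rw [tv_mul hfv, add_neg_cancel, zero_smul, tv_zero])
  rw [conj_R _ hfv, conj_R _ hgw, inv_inv, inv_inv, hb, ha',
    coe_tv (show g ⬝ᵥ (-c⁻¹) • w = 0 by simp [hgw]), coe_tv (show g ⬝ᵥ c⁻¹ • w = 0 by simp [hgw]),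
    coe_tv (show f ⬝ᵥ (-c) • v = 0 by simp [hfv]), coe_tv (show f ⬝ᵥ c • v = 0 by simp [hfv])]
  simp only [add_mulVec, one_mulVec, vecMulVec_mulVec, vecMul_add, vecMul_one, vecMul_vecMulVec, hgv,
    dotProduct_smul, hfw, MulOpposite.op_one, one_smul, smul_eq_mul, mul_one]
  have h1 : v + (-c⁻¹) • w = (-c⁻¹) • (w + (-c) • v) := by
    rw [smul_add, smul_smul, neg_mul_neg, inv_mul_cancel₀ hc, one_smul, add_comm]
  have h2 : f + c⁻¹ • g = c⁻¹ • (g + c • f) := by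
    rw [smul_add, smul_smul, inv_mul_cancel₀ hc, one_smul, add_comm]
  rw [h1, h2, R_smul_left (neg_ne_zero.mpr (inv_ne_zero hc)), R_smul_right ?_ (inv_ne_zero hc)]
  simp [dotProduct_add, add_dotProduct, dotProduct_smul, smul_dotProduct, hfv, hfw, hgv, hgw]

theorem rankOnePair (hfv : f ⬝ᵥ v = 0) (hfw : f ⬝ᵥ w = 1) (hgv : g ⬝ᵥ v = 1) (hgw : g ⬝ᵥ w = 0) :
    Cfsg.IsRankOnePair (R v f) (R w g) := by
  haveI := R_comm hfv
  haveI := R_comm hgw
  refine ⟨R_ne_normal hfv hfw hgw ?_, ?_, ?_, rankOneCondition hfv hfw hgv hgw, rankOneCondition hgw hgv hfw hfv⟩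
  · intro e; rw [e, zero_dotProduct] at hgv; exact zero_ne_one hgv
  · letI : CommGroup (R v f) := { (inferInstance : Group (R v f)) with mul_comm := (R_comm hfv).is_comm.comm }
    exact CommGroup.isNilpotent
  · letI : CommGroup (R w g) := { (inferInstance : Group (R w g)) with mul_comm := (R_comm hgw).is_comm.comm }
    exact CommGroup.isNilpotent

/-! ### The three cases -/

theorem opposite_pair (hfv : f ⬝ᵥ v = 0) (hgw : g ⬝ᵥ w = 0) (ha : f ⬝ᵥ w ≠ 0) (hb : g ⬝ᵥ v ≠ 0) :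
    Cfsg.IsRankOnePair (R v f) (R w g) ∧ Cfsg.IsPSL2PairOver k (R v f) (R w g) := by
  set w' := (f ⬝ᵥ w)⁻¹ • w with hw'
  set g' := (g ⬝ᵥ v)⁻¹ • g with hg'
  have e : R w g = R w' g' := by
    rw [hw', hg', R_smul_left (inv_ne_zero ha), R_smul_right hgw (inv_ne_zero hb)]
  have h1 : f ⬝ᵥ w' = 1 := by rw [hw', dotProduct_smul, smul_eq_mul, inv_mul_cancel₀ ha]
  have h2 : g' ⬝ᵥ v = 1 := by rw [hg', smul_dotProduct, smul_eq_mul, inv_mul_cancel₀ hb]
  have h3 : g' ⬝ᵥ w' = 0 := by rw [hg', hw', smul_dotProduct, dotProduct_smul, hgw, smul_zero, smul_zero]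
  rw [e]
  exact ⟨rankOnePair hfv h1 h2 h3, psl2_pair hfv h1 h2 h3⟩

theorem tv_commute (hfv : f ⬝ᵥ v = 0) (hgw : g ⬝ᵥ w = 0) (ha : f ⬝ᵥ w = 0) (hb : g ⬝ᵥ v = 0) (c d : k) :
    tv (c • v) f * tv (d • w) g = tv (d • w) g * tv (c • v) f := by
  refine Subtype.ext ?_
  rw [Matrix.SpecialLinearGroup.coe_mul, Matrix.SpecialLinearGroup.coe_mul, coe_tv (by simp [hfv]),
    coe_tv (by simp [hgw])]
  simp [mul_add, add_mul, smul_vecMulVec, vecMulVec_mul_vecMulVec, ha, hb]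
  abel

theorem comm_pair (hfv : f ⬝ᵥ v = 0) (hgw : g ⬝ᵥ w = 0) (ha : f ⬝ᵥ w = 0) (hb : g ⬝ᵥ v = 0) :
    ⁅R v f, R w g⁆ = ⊥ := by
  rw [Subgroup.commutator_eq_bot_iff_le_centralizer]
  intro x hx
  obtain ⟨c, rfl⟩ := (mem_R hfv).mp hx
  refine Subgroup.mem_centralizer_iff.mpr fun y hy => ?_
  obtain ⟨d, rfl⟩ := (mem_R hgw).mp hy
  exact (tv_commute hfv hgw ha hb c d).symm

theorem tv_commutator (hfv : f ⬝ᵥ v = 0) (hgw : g ⬝ᵥ w = 0) (hb : g ⬝ᵥ v = 0) (c d : k) :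
    tv (c • v) f * tv (d • w) g * (tv (c • v) f)⁻¹ * (tv (d • w) g)⁻¹ = tv ((c * d * (f ⬝ᵥ w)) • v) g := by
  rw [mul_inv_eq_iff_eq_mul, mul_inv_eq_iff_eq_mul]
  refine Subtype.ext ?_
  simp only [Matrix.SpecialLinearGroup.coe_mul]
  rw [coe_tv (show f ⬝ᵥ c • v = 0 by simp [hfv]), coe_tv (show g ⬝ᵥ d • w = 0 by simp [hgw]),
    coe_tv (show g ⬝ᵥ (c * d * (f ⬝ᵥ w)) • v = 0 by simp [hb])]
  simp only [mul_add, add_mul, mul_one, one_mul, smul_vecMulVec, smul_mul_assoc, mul_smul_comm,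
    vecMulVec_mul_vecMulVec, hb, hgw, zero_smul, vecMulVec_zero, smul_zero, vecMulVec_smul, add_zero]
  module

theorem commutator_case {S : Set (Subgroup (Matrix.SpecialLinearGroup ι k))} (hfv : f ⬝ᵥ v = 0) (hgw : g ⬝ᵥ w = 0)
    (ha : f ⬝ᵥ w ≠ 0) (hb : g ⬝ᵥ v = 0) (hS : R v g ∈ S) :
    ⁅R v f, R w g⁆ = R v g ∧ Cfsg.RootCommutatorCase S (R v f) (R w g) ∧ Cfsg.RootCommutatorCase S (R w g) (R v f) := by
  have h1 : ∀ c : k, c ≠ 0 → Subgroup.closure ((fun b => tv (c • v) f * b * (tv (c • v) f)⁻¹ * b⁻¹) '' (R w g : Set _)) = R v g := by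
    intro c hc
    refine le_antisymm ((Subgroup.closure_le _).mpr ?_) ((Subgroup.closure_le _).mpr ?_)
    · rintro _ ⟨b, hb', rfl⟩
      obtain ⟨d, rfl⟩ := (mem_R hgw).mp hb'
      show _ * _ * _ * _ ∈ R v g
      rw [tv_commutator hfv hgw hb]; exact tv_mem_R _
    · rintro _ ⟨d, rfl⟩
      refine Subgroup.subset_closure ⟨_, tv_mem_R (d / (c * (f ⬝ᵥ w))), ?_⟩
      show _ * _ * _ * _ = _
      rw [tv_commutator hfv hgw hb]
      congr 2
      field_simp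
  have h2 : ∀ d : k, d ≠ 0 → Subgroup.closure ((fun a => a * tv (d • w) g * a⁻¹ * (tv (d • w) g)⁻¹) '' (R v f : Set _)) = R v g := by
    intro d hd
    refine le_antisymm ((Subgroup.closure_le _).mpr ?_) ((Subgroup.closure_le _).mpr ?_)
    · rintro _ ⟨a, ha', rfl⟩
      obtain ⟨c, rfl⟩ := (mem_R hfv).mp ha'
      show _ * _ * _ * _ ∈ R v g
      rw [tv_commutator hfv hgw hb]; exact tv_mem_R _
    · rintro _ ⟨c, rfl⟩
      refine Subgroup.subset_closure ⟨_, tv_mem_R (c / (d * (f ⬝ᵥ w))), ?_⟩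
      show _ * _ * _ * _ = _
      rw [tv_commutator hfv hgw hb]
      congr 2
      field_simp
  have h0 : ⁅R v f, R w g⁆ = R v g := by
    refine le_antisymm (Subgroup.commutator_le.mpr fun a ha' b hb' => ?_) ?_
    · obtain ⟨c, rfl⟩ := (mem_R hfv).mp ha'
      obtain ⟨d, rfl⟩ := (mem_R hgw).mp hb'
      rw [commutatorElement_def, tv_commutator hfv hgw hb]; exact tv_mem_R _
    · rw [← h1 1 one_ne_zero, Subgroup.closure_le]
      rintro _ ⟨b, hb', rfl⟩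
      exact Subgroup.commutator_mem_commutator (tv_mem_R _) hb'
  have hcen : ∀ c ∈ R v g, ∀ x ∈ R v f ⊔ R w g, c * x = x * c := by
    intro c hc x hx
    have : R v f ⊔ R w g ≤ Subgroup.centralizer ({c} : Set _) := by
      obtain ⟨c, rfl⟩ := (mem_R hb).mp hc
      refine sup_le ?_ ?_ <;> intro y hy <;> rw [Subgroup.mem_centralizer_singleton_iff]
      · obtain ⟨d, rfl⟩ := (mem_R hfv).mp hy
        exact (tv_commute hb hfv hb hfv c d).symm
      · obtain ⟨d, rfl⟩ := (mem_R hgw).mp hy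
        exact (tv_commute hb hgw hgw hb c d).symm
    exact (Subgroup.mem_centralizer_singleton_iff.mp (this hx)).symm
  refine ⟨h0, ⟨by rw [h0]; exact hS, by rw [h0]; exact hcen, fun a ha' ha1 => ?_, fun b hb' hb1 => ?_⟩,
    ⟨by rw [Subgroup.commutator_comm, h0]; exact hS, by rw [Subgroup.commutator_comm, h0, sup_comm]; exact hcen,
      fun b hb' hb1 => ?_, fun a ha' ha1 => ?_⟩⟩
  · obtain ⟨c, rfl⟩ := (mem_R hfv).mp ha'
    rw [h0]; exact h1 c fun e => ha1 (by rw [e, zero_smul, tv_zero])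
  · obtain ⟨d, rfl⟩ := (mem_R hgw).mp hb'
    rw [h0]; exact h2 d fun e => hb1 (by rw [e, zero_smul, tv_zero])
  · obtain ⟨d, rfl⟩ := (mem_R hgw).mp hb'
    rw [Subgroup.commutator_comm, h0, ← h2 d fun e => hb1 (by rw [e, zero_smul, tv_zero]),
      ← Subgroup.closure_inv]
    congr 1
    rw [← Set.image_inv_eq_inv, Set.image_image]
    simp [_root_.mul_inv_rev, mul_assoc]
  · obtain ⟨c, rfl⟩ := (mem_R hfv).mp ha'
    rw [Subgroup.commutator_comm, h0, ← h1 c fun e => ha1 (by rw [e, zero_smul, tv_zero]),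
      ← Subgroup.closure_inv]
    congr 1
    rw [← Set.image_inv_eq_inv, Set.image_image]
    simp [_root_.mul_inv_rev, mul_assoc]

theorem not_rankOne (hfv : f ⬝ᵥ v = 0) (hgw : g ⬝ᵥ w = 0) (hv : v ≠ 0) (hf : f ≠ 0)
    (hb : g ⬝ᵥ v = 0) : ¬ Cfsg.RankOneCondition (R v f) (R w g) ∨ f ⬝ᵥ w = 0 := by
  by_cases ha : f ⬝ᵥ w = 0
  · exact Or.inr ha
  refine Or.inl fun hc => ?_
  obtain ⟨b, hbm, -, he⟩ := hc (tv ((1 : k) • v) f) (tv_mem_R _) (tv_ne_one hfv hv hf one_ne_zero)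
  obtain ⟨d, rfl⟩ := (mem_R hgw).mp hbm
  have hb' : (tv (d • w) g)⁻¹ = tv ((-d) • w) g :=
    inv_eq_of_mul_eq_one_right (by rw [tv_mul hgw, add_neg_cancel, zero_smul, tv_zero])
  rw [conj_R _ hfv, conj_R _ hgw] at he
  have hfb : f ᵥ* (((tv (d • w) g)⁻¹⁻¹ : Matrix.SpecialLinearGroup ι k) : Matrix ι ι k) ≠ 0 := by
    rw [inv_inv]
    intro e
    have := congrArg (· ᵥ* (((tv (d • w) g)⁻¹ : Matrix.SpecialLinearGroup ι k) : Matrix ι ι k)) e
    simp only [zero_vecMul, vecMul_vecMul, ← Matrix.SpecialLinearGroup.coe_mul, mul_inv_cancel,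
      Matrix.SpecialLinearGroup.coe_one, vecMul_one] at this
    exact hf this
  obtain ⟨e, hev⟩ := R_inj (incident_conj _ hgw) (incident_conj _ hfv) hfb he
  rw [hb', coe_tv (show g ⬝ᵥ (-d) • w = 0 by simp [hgw]), add_mulVec, one_mulVec, vecMulVec_mulVec, hb,
    MulOpposite.op_zero, zero_smul, add_zero, (inv_eq_of_mul_eq_one_right (by
      rw [tv_mul hfv, add_neg_cancel, zero_smul, tv_zero]) : (tv ((1 : k) • v) f)⁻¹ = tv ((-1 : k) • v) f),
    coe_tv (show f ⬝ᵥ (-1 : k) • v = 0 by simp [hfv]), add_mulVec, one_mulVec, vecMulVec_mulVec] at hev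
  have h2 := congrArg (f ⬝ᵥ ·) hev
  simp [dotProduct_add, dotProduct_smul, hfv] at h2
  rcases h2 with h2 | h2
  · rw [h2, zero_smul] at hev; exact hv hev
  · exact ha h2

/-- The root class. -/
def Cls (ι k : Type*) [Field k] [Fintype ι] [DecidableEq ι] : Set (Subgroup (Matrix.SpecialLinearGroup ι k)) :=
  {A | ∃ v f : ι → k, v ≠ 0 ∧ f ≠ 0 ∧ f ⬝ᵥ v = 0 ∧ A = R v f}

theorem rankOne_iff (hfv : f ⬝ᵥ v = 0) (hgw : g ⬝ᵥ w = 0) (hv : v ≠ 0) (hw : w ≠ 0) (hf : f ≠ 0) (hg : g ≠ 0) :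
    Cfsg.IsRankOnePair (R v f) (R w g) ↔ f ⬝ᵥ w ≠ 0 ∧ g ⬝ᵥ v ≠ 0 := by
  refine ⟨fun h => ?_, fun h => (opposite_pair hfv hgw h.1 h.2).1⟩
  have key : ¬ (f ⬝ᵥ w = 0 ∧ g ⬝ᵥ v = 0) := by
    rintro ⟨ha, hb⟩
    obtain ⟨b, hbm, -, he⟩ := h.cond_left (tv ((1 : k) • v) f) (tv_mem_R _) (tv_ne_one hfv hv hf one_ne_zero)
    have hc : ∀ x ∈ R v f, ∀ y ∈ R w g, x * y = y * x := by
      intro x hx y hy
      obtain ⟨c, rfl⟩ := (mem_R hfv).mp hx
      obtain ⟨d, rfl⟩ := (mem_R hgw).mp hy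
      exact tv_commute hfv hgw ha hb c d
    have e1 : Cfsg.conjBy (R v f) b⁻¹ = R v f := by
      ext x
      rw [Cfsg.conjBy, Subgroup.mem_map]
      constructor
      · rintro ⟨y, hy, rfl⟩
        show b⁻¹ * y * b⁻¹⁻¹ ∈ R v f
        rw [inv_inv, mul_assoc, hc y hy b hbm, inv_mul_cancel_left]; exact hy
      · intro hx
        exact ⟨x, hx, by show b⁻¹ * x * b⁻¹⁻¹ = x; rw [inv_inv, mul_assoc, hc x hx b hbm, inv_mul_cancel_left]⟩
    have e2 : Cfsg.conjBy (R w g) (tv ((1 : k) • v) f)⁻¹ = R w g := by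
      have hcy : ∀ y ∈ R w g, (tv ((1 : k) • v) f)⁻¹ * y * ((tv ((1 : k) • v) f)⁻¹)⁻¹ = y := fun y hy => by
        rw [hc _ (inv_mem (tv_mem_R _)) y hy, mul_inv_cancel_right]
      ext x
      rw [Cfsg.conjBy, Subgroup.mem_map]
      constructor
      · rintro ⟨y, hy, rfl⟩
        show _ * y * _ ∈ _
        rw [hcy y hy]; exact hy
      · intro hx
        exact ⟨x, hx, hcy x hx⟩
    exact h.ne (e1.symm.trans (he.trans e2))
  refine ⟨fun ha => ?_, fun hb => ?_⟩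
  · rcases not_rankOne hgw hfv hw hg ha with h1 | h1
    · exact h1 h.cond_right
    · exact key ⟨ha, h1⟩
  · rcases not_rankOne hfv hgw hv hf hb with h1 | h1
    · exact h1 h.cond_left
    · exact key ⟨h1, hb⟩

theorem R_ne_bot (hfv : f ⬝ᵥ v = 0) (hv : v ≠ 0) (hf : f ≠ 0) : R v f ≠ ⊥ := fun e =>
  tv_ne_one hfv hv hf one_ne_zero (Subgroup.mem_bot.mp (e ▸ tv_mem_R (1 : k)))

theorem cls_generates [Nontrivial ι] : (⨆ A ∈ Cls ι k, A) = ⊤ := by
  refine CfsgLib.SLn.eq_top_of_transvection _ fun i j hij c => ?_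
  have hmem : R (Pi.single i (1 : k)) (Pi.single j (1 : k)) ∈ Cls ι k :=
    ⟨Pi.single i 1, Pi.single j 1, Pi.single_ne_zero_iff.2 one_ne_zero, Pi.single_ne_zero_iff.2 one_ne_zero,
      by simp [hij, hij.symm], rfl⟩
  have h0 : (Pi.single j (1 : k) : ι → k) ⬝ᵥ Pi.single i (1 : k) = 0 := by simp [hij, hij.symm]
  have : Matrix.SpecialLinearGroup.transvection hij c = tv (c • Pi.single i (1 : k)) (Pi.single j (1 : k)) := by
    refine Subtype.ext ?_
    rw [coe_tv (by simp [hij, hij.symm]), Matrix.SpecialLinearGroup.transvection_coe]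
    ext a b
    simp only [Matrix.transvection, Matrix.add_apply, Matrix.single_apply, vecMulVec_apply, Pi.smul_apply,
      Pi.single_apply, smul_eq_mul]
    aesop
  rw [this]
  exact le_iSup₂ (f := fun A (_ : A ∈ Cls ι k) => A) _ hmem (tv_mem_R c)

theorem cls_pair {A B : Subgroup (Matrix.SpecialLinearGroup ι k)} (hA : A ∈ Cls ι k) (hB : B ∈ Cls ι k) :
    ⁅A, B⁆ = ⊥ ∨ Cfsg.IsRankOnePair A B ∨ Cfsg.RootCommutatorCase (Cls ι k) A B := by
  obtain ⟨v, f, hv, hf, hfv, rfl⟩ := hA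
  obtain ⟨w, g, hw, hg, hgw, rfl⟩ := hB
  by_cases ha : f ⬝ᵥ w = 0 <;> by_cases hb : g ⬝ᵥ v = 0
  · exact Or.inl (comm_pair hfv hgw ha hb)
  · exact Or.inr (Or.inr (commutator_case (S := Cls ι k) hgw hfv hb ha ⟨w, f, hw, hf, ha, rfl⟩).2.2)
  · exact Or.inr (Or.inr (commutator_case (S := Cls ι k) hfv hgw ha hb ⟨v, g, hv, hg, hb, rfl⟩).2.1)
  · exact Or.inr (Or.inl (opposite_pair hfv hgw ha hb).1)

theorem cls_conj {A : Subgroup (Matrix.SpecialLinearGroup ι k)} (hA : A ∈ Cls ι k)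
    (g : Matrix.SpecialLinearGroup ι k) : Cfsg.conjBy A g ∈ Cls ι k := by
  obtain ⟨v, f, hv, hf, hfv, rfl⟩ := hA
  refine ⟨_, _, fun e => hv ?_, fun e => hf ?_, incident_conj g hfv, conj_R g hfv⟩
  · have := congrArg (fun x => ((g⁻¹ : Matrix.SpecialLinearGroup ι k) : Matrix ι ι k) *ᵥ x) e
    simp only [mulVec_zero, mulVec_mulVec, ← Matrix.SpecialLinearGroup.coe_mul, inv_mul_cancel,
      Matrix.SpecialLinearGroup.coe_one, one_mulVec] at this
    exact this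
  · have := congrArg (fun x => x ᵥ* (g : Matrix ι ι k)) e
    simp only [zero_vecMul, vecMul_vecMul, ← Matrix.SpecialLinearGroup.coe_mul, inv_mul_cancel,
      Matrix.SpecialLinearGroup.coe_one, vecMul_one] at this
    exact this

theorem cls_connected (hι : 3 ≤ Fintype.card ι) :
    Cfsg.IsConnectedFamily (Cfsg.FAdj (Cls ι k)) (Cls ι k) := by
  intro A hA B hB
  obtain ⟨v, f, hv, hf, hfv, rfl⟩ := hA
  obtain ⟨w, g, hw, hg, hgw, rfl⟩ := hB
  have key : ∀ a b : ι → k, a ≠ 0 → b ≠ 0 → ∃ x : ι → k, a ⬝ᵥ x ≠ 0 ∧ b ⬝ᵥ x ≠ 0 := by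
    intro a b ha hb
    by_cases hd : ∀ c : k, b ≠ c • a
    · obtain ⟨x, h1, h2⟩ := exists_dot ha hd 1 1
      exact ⟨x, by rw [h1]; exact one_ne_zero, by rw [h2]; exact one_ne_zero⟩
    push Not at hd
    obtain ⟨c, rfl⟩ := hd
    obtain ⟨x, hx⟩ := exists_dot_one ha
    exact ⟨x, by rw [hx]; exact one_ne_zero, by
      rw [smul_dotProduct, hx, smul_eq_mul, mul_one]; exact fun e => hb (by rw [e, zero_smul])⟩
  obtain ⟨x, hfx, hgx⟩ := key f g hf hg
  have hx : x ≠ 0 := fun e => hfx (by rw [e, dotProduct_zero])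
  have hvx : ∀ c : k, v ≠ c • x := fun c e => by
    rw [e, dotProduct_smul, smul_eq_mul] at hfv
    exact hv (by rw [e, (mul_eq_zero.mp hfv).resolve_right hfx, zero_smul])
  have hwx : ∀ c : k, w ≠ c • x := fun c e => by
    rw [e, dotProduct_smul, smul_eq_mul] at hgw
    exact hw (by rw [e, (mul_eq_zero.mp hgw).resolve_right hgx, zero_smul])
  obtain ⟨y1, h11, h12⟩ := exists_dot hx hvx 0 1
  obtain ⟨y2, h21, h22⟩ := exists_dot hx hwx 0 1
  obtain ⟨h, hhx, hhv, hhw⟩ : ∃ h : ι → k, h ⬝ᵥ x = 0 ∧ h ⬝ᵥ v ≠ 0 ∧ h ⬝ᵥ w ≠ 0 := by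
    rw [dotProduct_comm] at h11 h12 h21 h22
    by_cases h1 : y1 ⬝ᵥ w = 0
    · by_cases h2 : y2 ⬝ᵥ v = 0
      · exact ⟨y1 + y2, by rw [add_dotProduct, h11, h21, add_zero],
          by rw [add_dotProduct, h12, h2, add_zero]; exact one_ne_zero,
          by rw [add_dotProduct, h1, h22, zero_add]; exact one_ne_zero⟩
      · exact ⟨y2, h21, h2, by rw [h22]; exact one_ne_zero⟩
    · exact ⟨y1, h11, by rw [h12]; exact one_ne_zero, h1⟩
  have hh : h ≠ 0 := fun e => hhv (by rw [e, zero_dotProduct])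
  exact Relation.ReflTransGen.head (b := R x h)
    ⟨⟨v, f, hv, hf, hfv, rfl⟩, ⟨x, h, hx, hh, hhx, rfl⟩, (opposite_pair hfv hhx hfx hhv).1⟩
    (Relation.ReflTransGen.single
      ⟨⟨x, h, hx, hh, hhx, rfl⟩, ⟨w, g, hw, hg, hgw, rfl⟩, (opposite_pair hhx hgw hhw hgx).1⟩)

theorem cls_class (hι : 3 ≤ Fintype.card ι) : Cfsg.IsRootSubgroupClass (Cls ι k) := by
  haveI : Nontrivial ι := Fintype.one_lt_card_iff_nontrivial.mp (by omega)
  refine ⟨⟨?_, ?_, cls_generates, fun A hA g => cls_conj hA g, fun A hA B hB => cls_pair hA hB⟩, ?_, ?_⟩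
  · rintro _ ⟨v, f, -, -, hfv, rfl⟩; exact R_comm hfv
  · rintro _ ⟨v, f, hv, hf, hfv, rfl⟩; exact R_ne_bot hfv hv hf
  · obtain ⟨i, j, hij⟩ := exists_pair_ne ι
    exact ⟨_, Pi.single i 1, Pi.single j 1, Pi.single_ne_zero_iff.2 one_ne_zero, Pi.single_ne_zero_iff.2 one_ne_zero,
      by simp [hij, hij.symm], rfl⟩
  · rintro _ ⟨v, f, hv, hf, hfv, rfl⟩ _ ⟨w, g, hw, hg, hgw, rfl⟩
    obtain ⟨x, hx1, hx2⟩ := exists_move hι hv hf hfv hw hg hgw
    exact ⟨x, by rw [conj_R x hfv, hx1, hx2]⟩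

theorem cls_nondegenerate (hι : 3 ≤ Fintype.card ι) : Cfsg.IsNondegenerateRootSet (Cls ι k) := by
  obtain ⟨a, b, c, hab, hac, hbc⟩ := Fintype.two_lt_card_iff.mp (by omega : 2 < Fintype.card ι)
  have ne : ∀ i : ι, (Pi.single i 1 : ι → k) ≠ 0 := fun i => Pi.single_ne_zero_iff.2 one_ne_zero
  have d0 : ∀ {i j : ι}, i ≠ j → (Pi.single i 1 : ι → k) ⬝ᵥ Pi.single j 1 = 0 := fun h => by simp [h, h.symm]
  have d1 : ∀ i : ι, (Pi.single i 1 : ι → k) ⬝ᵥ Pi.single i 1 = 1 := fun i => by simp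
  have mem : ∀ {i j : ι}, i ≠ j → R (Pi.single i (1 : k)) (Pi.single j 1) ∈ Cls ι k := fun h =>
    ⟨_, _, ne _, ne _, d0 h.symm, rfl⟩
  refine ⟨⟨_, mem hab, _, mem hac, ?_, comm_pair (d0 hab.symm) (d0 hac.symm) (d0 hab.symm) (d0 hac.symm)⟩,
    ⟨_, mem hab, _, mem hab.symm, (opposite_pair (d0 hab.symm) (d0 hab) (by rw [d1]; exact one_ne_zero)
      (by rw [d1]; exact one_ne_zero)).1⟩,
    ⟨_, mem hab, _, mem hbc, (commutator_case (d0 hab.symm) (d0 hbc.symm) (by rw [d1]; exact one_ne_zero)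
      (d0 hac.symm) (mem hac)).2.1⟩⟩
  intro e
  obtain ⟨d, hd⟩ := (mem_R (d0 hac.symm)).mp (e ▸ tv_mem_R (v := (Pi.single a (1 : k) : ι → k)) (f := Pi.single b 1) (1 : k))
  have := congrFun (congrFun (congrArg Subtype.val hd) a) b
  rw [coe_tv (by simp [hab, hab.symm]), coe_tv (by simp [hac, hac.symm])] at this
  simp [vecMulVec_apply, hbc, hab] at this

theorem cls_kRoot (hι : 3 ≤ Fintype.card ι) : Cfsg.IsKRootSubgroupSet k (Cls ι k) := by
  refine ⟨(cls_class hι).1, ?_⟩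
  rintro _ ⟨v, f, hv, hf, hfv, rfl⟩ _ ⟨w, g, hw, hg, hgw, rfl⟩ h
  have h1 := (rankOne_iff hfv hgw hv hw hf hg).mp h
  exact (opposite_pair hfv hgw h1.1 h1.2).2

theorem cls_eq (hι : 3 ≤ Fintype.card ι) {i j : ι} (hij : i ≠ j) :
    {A : Subgroup (Matrix.SpecialLinearGroup ι k) | ∃ g : Matrix.SpecialLinearGroup ι k,
      A = Cfsg.conjBy (Subgroup.closure {t : Matrix.SpecialLinearGroup ι k |
        ∃ c : k, (t : Matrix ι ι k) = Matrix.transvection i j c}) g} = Cls ι k := by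
  set e1 : ι → k := Pi.single i 1
  set e2 : ι → k := Pi.single j 1
  have h0 : e2 ⬝ᵥ e1 = 0 := by simp [e1, e2, hij, hij.symm]
  have hR : Subgroup.closure {t : Matrix.SpecialLinearGroup ι k |
      ∃ c : k, (t : Matrix ι ι k) = Matrix.transvection i j c} = R e1 e2 := by
    rw [R]
    congr 1
    have hco : ∀ c : k, (tv (c • e1) e2 : Matrix ι ι k) = Matrix.transvection i j c := fun c => by
      rw [coe_tv (by simp [h0])]
      ext a b
      simp only [Matrix.transvection, Matrix.add_apply, Matrix.single_apply, vecMulVec_apply, Pi.smul_apply,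
        Pi.single_apply, smul_eq_mul, e1, e2]
      aesop
    ext t
    exact ⟨fun ⟨c, hc⟩ => ⟨c, Subtype.ext ((hco c).trans hc.symm)⟩, by rintro ⟨c, rfl⟩; exact ⟨c, hco c⟩⟩
  rw [hR]
  have hm : R e1 e2 ∈ Cls ι k :=
    ⟨e1, e2, Pi.single_ne_zero_iff.2 one_ne_zero, Pi.single_ne_zero_iff.2 one_ne_zero, h0, rfl⟩
  ext A
  constructor
  · rintro ⟨g, rfl⟩; exact cls_conj hm g
  · intro hA
    exact (cls_class hι).2.2 _ hm A hA

end CfsgLib.RootTv
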