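import Cfsg.Agent.SLn.Basic
import Cfsg.Agent.SL2.Basic
import Cfsg.Prelude.Def_Characters
import Cfsg.Prelude.Def_ParabolicCharacters
set_option autoImplicit false

/-!
The values of the principal series of `SL₂`.
-/

namespace CfsgLib.H10.PrincipalSeries

open Matrix

variable {F : Type*} [Field F] [Fintype F] [DecidableEq F]

/-- The standard first basis vector. -/
def e0 : Fin 2 → F := Pi.single 0 1

/-- The eigenvalue character at a vector. -/
noncomputable def val (α : MulChar F ℂ) (g : Matrix.SpecialLinearGroup (Fin 2) F) (v : Fin 2 → F) : ℂ :=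
  haveI := Classical.propDecidable (∃ c : F, (g : Matrix (Fin 2) (Fin 2) F) *ᵥ v = c • v)
  if h : ∃ c : F, (g : Matrix (Fin 2) (Fin 2) F) *ᵥ v = c • v then α h.choose else 0

theorem val_eq (α : MulChar F ℂ) {g : Matrix.SpecialLinearGroup (Fin 2) F} {v : Fin 2 → F} (hv : v ≠ 0) {c : F}
    (hc : (g : Matrix (Fin 2) (Fin 2) F) *ᵥ v = c • v) : val α g v = α c := by
  have h : ∃ c : F, (g : Matrix (Fin 2) (Fin 2) F) *ᵥ v = c • v := ⟨c, hc⟩
  rw [val, dif_pos h]
  congr 1
  exact smul_left_injective F hv (h.choose_spec.symm.trans hc)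

theorem val_zero (α : MulChar F ℂ) {g : Matrix.SpecialLinearGroup (Fin 2) F} {v : Fin 2 → F}
    (hc : ∀ c : F, (g : Matrix (Fin 2) (Fin 2) F) *ᵥ v ≠ c • v) : val α g v = 0 := by
  rw [val, dif_neg (fun ⟨c, h⟩ => hc c h)]

theorem mem_borel (x : Matrix.SpecialLinearGroup (Fin 2) F) :
    x ∈ (Cfsg.upperTriangularGL 2 F).comap Matrix.SpecialLinearGroup.toGL ↔ (x : Matrix (Fin 2) (Fin 2) F) 1 0 = 0 := by
  constructor
  · intro h
    exact h (show id (0 : Fin 2) < id 1 from Fin.zero_lt_one)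
  · intro h i j hij
    fin_cases i <;> fin_cases j <;> first | exact h | exact absurd hij (by decide)

theorem summand (α : MulChar F ℂ) (g x : Matrix.SpecialLinearGroup (Fin 2) F) :
    Cfsg.extendByZero ((Cfsg.upperTriangularGL 2 F).comap Matrix.SpecialLinearGroup.toGL)
      (fun b => α (((b : Matrix.SpecialLinearGroup (Fin 2) F) : Matrix (Fin 2) (Fin 2) F) 0 0)) (x⁻¹ * g * x) =
    val α g ((x : Matrix (Fin 2) (Fin 2) F) *ᵥ e0) := by
  set y := x⁻¹ * g * x with hy
  have hx0 : (x : Matrix (Fin 2) (Fin 2) F) *ᵥ e0 ≠ 0 := fun e => by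
    have := congrArg (fun u => ((x⁻¹ : Matrix.SpecialLinearGroup (Fin 2) F) : Matrix (Fin 2) (Fin 2) F) *ᵥ u) e
    simp only [mulVec_mulVec, ← Matrix.SpecialLinearGroup.coe_mul, inv_mul_cancel, Matrix.SpecialLinearGroup.coe_one,
      one_mulVec, mulVec_zero] at this
    exact Pi.single_ne_zero_iff.2 one_ne_zero this
  have hiff : ∀ c : F, (g : Matrix (Fin 2) (Fin 2) F) *ᵥ ((x : Matrix (Fin 2) (Fin 2) F) *ᵥ e0) =
      c • ((x : Matrix (Fin 2) (Fin 2) F) *ᵥ e0) ↔ (y : Matrix (Fin 2) (Fin 2) F) *ᵥ e0 = c • e0 := by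
    intro c
    have h1 : (g : Matrix (Fin 2) (Fin 2) F) *ᵥ ((x : Matrix (Fin 2) (Fin 2) F) *ᵥ e0) =
        (x : Matrix (Fin 2) (Fin 2) F) *ᵥ ((y : Matrix (Fin 2) (Fin 2) F) *ᵥ e0) := by
      rw [mulVec_mulVec, mulVec_mulVec, ← Matrix.SpecialLinearGroup.coe_mul, ← Matrix.SpecialLinearGroup.coe_mul, hy,
        mul_assoc x⁻¹, mul_inv_cancel_left]
    rw [h1, ← mulVec_smul]
    constructor
    · intro e
      have := congrArg (fun u => ((x⁻¹ : Matrix.SpecialLinearGroup (Fin 2) F) : Matrix (Fin 2) (Fin 2) F) *ᵥ u) e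
      simpa only [mulVec_mulVec, ← Matrix.SpecialLinearGroup.coe_mul, inv_mul_cancel, ← mul_assoc,
        Matrix.SpecialLinearGroup.coe_one, one_mulVec, one_mul] using this
    · intro e; rw [e]
  rw [Cfsg.extendByZero]
  by_cases hm : (y : Matrix (Fin 2) (Fin 2) F) 1 0 = 0
  · rw [show y = ((⟨y, (mem_borel y).mpr hm⟩ : ↥((Cfsg.upperTriangularGL 2 F).comap Matrix.SpecialLinearGroup.toGL)) : Matrix.SpecialLinearGroup (Fin 2) F) from rfl,
      Subtype.val_injective.extend_apply]
    refine (val_eq α hx0 ((hiff ((y : Matrix (Fin 2) (Fin 2) F) 0 0)).mpr ?_)).symm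
    funext i; fin_cases i <;> simp [e0, hm]
  · rw [Function.extend_apply' _ _ _ (fun ⟨b, hb⟩ => hm ((mem_borel y).mp (hb ▸ b.2))), Pi.zero_apply]
    refine (val_zero α fun c hc => hm ?_).symm
    have := congrFun ((hiff c).mp hc) 1
    simpa [e0] using this

theorem fiber {v : Fin 2 → F} (hv : v ≠ 0) :
    (Finset.univ.filter fun x : Matrix.SpecialLinearGroup (Fin 2) F =>
      (x : Matrix (Fin 2) (Fin 2) F) *ᵥ e0 = v).card = Fintype.card F := by
  obtain ⟨a, ha⟩ := CfsgLib.SLn.exists_smul_eq (Pi.single_ne_zero_iff.2 one_ne_zero : (e0 : Fin 2 → F) ≠ 0) hv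
  have ha' : (a : Matrix (Fin 2) (Fin 2) F) *ᵥ e0 = v := ha
  symm
  rw [← Finset.card_univ]
  refine Finset.card_bij (fun t _ => a * Matrix.SpecialLinearGroup.transvection Fin.zero_ne_one t) ?_ ?_ ?_
  · intro t _
    refine Finset.mem_filter.mpr ⟨Finset.mem_univ _, ?_⟩
    have hfix : (Matrix.SpecialLinearGroup.transvection (Fin.zero_ne_one : (0 : Fin 2) ≠ 1) t : Matrix (Fin 2) (Fin 2) F) *ᵥ e0 = e0 := by
      funext i; fin_cases i <;> simp [e0, Matrix.SpecialLinearGroup.transvection_coe]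
    rw [Matrix.SpecialLinearGroup.coe_mul, ← mulVec_mulVec, hfix, ha']
  · intro s _ t _ h
    have := congrArg (fun x : Matrix.SpecialLinearGroup (Fin 2) F => (x : Matrix (Fin 2) (Fin 2) F) 0 1) (mul_left_cancel h)
    simpa [Matrix.SpecialLinearGroup.transvection_coe] using this
  · intro x hx
    have hx' := (Finset.mem_filter.mp hx).2
    set y := a⁻¹ * x with hy
    have hye : (y : Matrix (Fin 2) (Fin 2) F) *ᵥ e0 = e0 := by
      rw [hy, Matrix.SpecialLinearGroup.coe_mul, ← mulVec_mulVec, hx', ← ha', mulVec_mulVec,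
        ← Matrix.SpecialLinearGroup.coe_mul, inv_mul_cancel, Matrix.SpecialLinearGroup.coe_one, one_mulVec]
    have h0 := congrFun hye 0
    have h1 := congrFun hye 1
    simp [e0] at h0 h1
    have hd := y.det_coe
    rw [Matrix.det_fin_two, h0, h1, one_mul, mul_zero, sub_zero] at hd
    refine ⟨(y : Matrix (Fin 2) (Fin 2) F) 0 1, Finset.mem_univ _, ?_⟩
    rw [show Matrix.SpecialLinearGroup.transvection Fin.zero_ne_one ((y : Matrix (Fin 2) (Fin 2) F) 0 1) = y from ?_, hy,
      mul_inv_cancel_left]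
    refine Subtype.ext ?_
    ext i j; fin_cases i <;> fin_cases j <;> simp [Matrix.SpecialLinearGroup.transvection_coe, h0, h1, hd]

theorem card_borel : Nat.card ↥((Cfsg.upperTriangularGL 2 F).comap Matrix.SpecialLinearGroup.toGL) =
    Fintype.card F * (Fintype.card F - 1) := by
  have e : ↥((Cfsg.upperTriangularGL 2 F).comap Matrix.SpecialLinearGroup.toGL) ≃ Fˣ × F :=
    { toFun := fun b => (Units.mk0 ((b : Matrix.SpecialLinearGroup (Fin 2) F) 0 0) (fun h => by
        have hd := (b : Matrix.SpecialLinearGroup (Fin 2) F).det_coe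
        rw [Matrix.det_fin_two, h, (mem_borel _).mp b.2] at hd
        simp at hd), (b : Matrix.SpecialLinearGroup (Fin 2) F) 0 1)
      invFun := fun x => ⟨⟨!![(x.1 : F), x.2; 0, (x.1 : F)⁻¹], by simp [Matrix.det_fin_two]⟩,
        (mem_borel _).mpr rfl⟩
      left_inv := fun b => by
        refine Subtype.ext (Subtype.ext ?_)
        have h10 := (mem_borel _).mp b.2
        have hd := (b : Matrix.SpecialLinearGroup (Fin 2) F).det_coe
        rw [Matrix.det_fin_two, h10, mul_zero, sub_zero] at hd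
        ext i j; fin_cases i <;> fin_cases j <;> simp [h10, eq_inv_of_mul_eq_one_right hd]
      right_inv := fun x => by
        refine Prod.ext (Units.ext ?_) ?_ <;> simp }
  rw [Nat.card_congr e, Nat.card_prod, Nat.card_units, Nat.card_eq_fintype_card, mul_comm]

theorem indFun_eq (α : MulChar F ℂ) (g : Matrix.SpecialLinearGroup (Fin 2) F) :
    Cfsg.indFun ((Cfsg.upperTriangularGL 2 F).comap Matrix.SpecialLinearGroup.toGL)
      (fun b => α (((b : Matrix.SpecialLinearGroup (Fin 2) F) : Matrix (Fin 2) (Fin 2) F) 0 0)) g =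
    ((Fintype.card F : ℂ) - 1)⁻¹ * ∑ v ∈ Finset.univ.erase (0 : Fin 2 → F), val α g v := by
  rw [Cfsg.indFun]
  simp only [summand]
  rw [← Finset.sum_fiberwise_of_maps_to (t := Finset.univ.erase (0 : Fin 2 → F))
    (g := fun x : Matrix.SpecialLinearGroup (Fin 2) F => (x : Matrix (Fin 2) (Fin 2) F) *ᵥ e0) (fun x _ => by
      refine Finset.mem_erase.mpr ⟨fun e => ?_, Finset.mem_univ _⟩
      have := congrArg (fun u => ((x⁻¹ : Matrix.SpecialLinearGroup (Fin 2) F) : Matrix (Fin 2) (Fin 2) F) *ᵥ u) e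
      simp only [mulVec_mulVec, ← Matrix.SpecialLinearGroup.coe_mul, inv_mul_cancel, Matrix.SpecialLinearGroup.coe_one,
        one_mulVec, mulVec_zero] at this
      exact Pi.single_ne_zero_iff.2 one_ne_zero this)]
  have hin : ∀ v ∈ Finset.univ.erase (0 : Fin 2 → F),
      (∑ x ∈ Finset.univ.filter fun x : Matrix.SpecialLinearGroup (Fin 2) F =>
        (x : Matrix (Fin 2) (Fin 2) F) *ᵥ e0 = v, val α g ((x : Matrix (Fin 2) (Fin 2) F) *ᵥ e0)) =
      (Fintype.card F : ℂ) * val α g v := by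
    intro v hv
    rw [Finset.sum_congr rfl (fun x hx => by rw [(Finset.mem_filter.mp hx).2]), Finset.sum_const,
      fiber (Finset.ne_of_mem_erase hv), nsmul_eq_mul]
  rw [Finset.sum_congr rfl hin, ← Finset.mul_sum, card_borel, Nat.cast_mul,
    Nat.cast_sub Fintype.card_pos, Nat.cast_one]
  have hq : (Fintype.card F : ℂ) ≠ 0 := Nat.cast_ne_zero.mpr Fintype.card_ne_zero
  field_simp

theorem values (h2 : (2 : F) ≠ 0) (α : MulChar F ℂ) (g : Matrix.SpecialLinearGroup (Fin 2) F) :
    ((g : Matrix (Fin 2) (Fin 2) F) 0 1 = 0 → (g : Matrix (Fin 2) (Fin 2) F) 1 0 = 0 → (g : Matrix (Fin 2) (Fin 2) F) 0 0 ^ 2 ≠ 1 →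
      (Cfsg.indFun ((Cfsg.upperTriangularGL 2 F).comap Matrix.SpecialLinearGroup.toGL) (fun b => α (((b : Matrix.SpecialLinearGroup (Fin 2) F) : Matrix (Fin 2) (Fin 2) F) 0 0))) g = α ((g : Matrix (Fin 2) (Fin 2) F) 0 0) + α ((g : Matrix (Fin 2) (Fin 2) F) 1 1)) ∧
    ((∀ (c : F) (v : Fin 2 → F), v ≠ 0 → (g : Matrix (Fin 2) (Fin 2) F).mulVec v ≠ c • v) → (Cfsg.indFun ((Cfsg.upperTriangularGL 2 F).comap Matrix.SpecialLinearGroup.toGL) (fun b => α (((b : Matrix.SpecialLinearGroup (Fin 2) F) : Matrix (Fin 2) (Fin 2) F) 0 0))) g = 0) ∧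
    ((g : Matrix (Fin 2) (Fin 2) F) 1 0 = 0 → (g : Matrix (Fin 2) (Fin 2) F) 0 0 = (g : Matrix (Fin 2) (Fin 2) F) 1 1 → (g : Matrix (Fin 2) (Fin 2) F) 0 1 ≠ 0 →
      (Cfsg.indFun ((Cfsg.upperTriangularGL 2 F).comap Matrix.SpecialLinearGroup.toGL) (fun b => α (((b : Matrix.SpecialLinearGroup (Fin 2) F) : Matrix (Fin 2) (Fin 2) F) 0 0))) g = α ((g : Matrix (Fin 2) (Fin 2) F) 0 0)) ∧
    ((g : Matrix (Fin 2) (Fin 2) F) 0 1 = 0 → (g : Matrix (Fin 2) (Fin 2) F) 1 0 = 0 → (g : Matrix (Fin 2) (Fin 2) F) 0 0 = (g : Matrix (Fin 2) (Fin 2) F) 1 1 →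
      (Cfsg.indFun ((Cfsg.upperTriangularGL 2 F).comap Matrix.SpecialLinearGroup.toGL) (fun b => α (((b : Matrix.SpecialLinearGroup (Fin 2) F) : Matrix (Fin 2) (Fin 2) F) 0 0))) g = ((Fintype.card F : ℂ) + 1) * α ((g : Matrix (Fin 2) (Fin 2) F) 0 0)) := by
  have hq1 : 1 < Fintype.card F := Fintype.one_lt_card
  have hq : (Fintype.card F : ℂ) - 1 ≠ 0 := sub_ne_zero.mpr (by exact_mod_cast hq1.ne')
  set a := (g : Matrix (Fin 2) (Fin 2) F) 0 0
  set b := (g : Matrix (Fin 2) (Fin 2) F) 0 1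
  set c := (g : Matrix (Fin 2) (Fin 2) F) 1 0
  set d := (g : Matrix (Fin 2) (Fin 2) F) 1 1
  have hd : a * d - b * c = 1 := by have := g.det_coe; rwa [Matrix.det_fin_two] at this
  have hmv : ∀ v : Fin 2 → F, (g : Matrix (Fin 2) (Fin 2) F) *ᵥ v = ![a * v 0 + b * v 1, c * v 0 + d * v 1] := by
    intro v; funext i; fin_cases i <;> simp [Matrix.mulVec, dotProduct, Fin.sum_univ_two, a, b, c, d]
  rw [indFun_eq]
  have hax : ∀ j : Fin 2, (Finset.univ.filter fun v : Fin 2 → F => v ≠ 0 ∧ v j = 0).card = Fintype.card F - 1 := by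
    intro j
    have e := (Finset.card_bij (s := Finset.univ.erase (0 : F))
      (t := Finset.univ.filter fun v : Fin 2 → F => v ≠ 0 ∧ v j = 0) (fun x _ => Pi.single (j + 1) x) ?_ ?_ ?_).symm
    · rw [e, Finset.card_erase_of_mem (Finset.mem_univ _), Finset.card_univ]
    · intro x hx
      refine Finset.mem_filter.mpr ⟨Finset.mem_univ _, Pi.single_ne_zero_iff.2 (Finset.ne_of_mem_erase hx), ?_⟩
      fin_cases j <;> simp
    · intro x _ y _ h
      exact Pi.single_injective (j + 1) h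
    · intro v hv
      obtain ⟨hv0, hvj⟩ := (Finset.mem_filter.mp hv).2
      refine ⟨v (j + 1), Finset.mem_erase.mpr ⟨fun h => hv0 ?_, Finset.mem_univ _⟩, ?_⟩
      · funext i; fin_cases i <;> fin_cases j <;> simp_all
      · funext i; fin_cases i <;> fin_cases j <;> simp_all
  have hqc : ((Fintype.card F - 1 : ℕ) : ℂ) = (Fintype.card F : ℂ) - 1 := by
    rw [Nat.cast_sub hq1.le, Nat.cast_one]
  refine ⟨fun hb hc ha2 => ?_, fun hno => ?_, fun hc had hb => ?_, fun hb hc had => ?_⟩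
  · have hne : a ≠ d := fun e => ha2 (by rw [pow_two]; linear_combination hd + a * e + c * hb)
    have hs : ∀ v ∈ Finset.univ.erase (0 : Fin 2 → F), val α g v =
        (if v 1 = 0 then α a else 0) + (if v 0 = 0 then α d else 0) := by
      intro v hv
      have hv0 := Finset.ne_of_mem_erase hv
      by_cases h1 : v 1 = 0
      · have h0 : v 0 ≠ 0 := fun h0 => hv0 (by funext i; fin_cases i <;> assumption)
        rw [if_pos h1, if_neg h0, add_zero]
        exact val_eq α hv0 (by rw [hmv]; funext i; fin_cases i <;> simp [hb, hc, h1])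
      · by_cases h0 : v 0 = 0
        · rw [if_neg h1, if_pos h0, zero_add]
          exact val_eq α hv0 (by rw [hmv]; funext i; fin_cases i <;> simp [hb, hc, h0])
        · rw [if_neg h1, if_neg h0, add_zero]
          refine val_zero α fun e he => ?_
          rw [hmv] at he
          have e0 := congrFun he 0
          have e1 := congrFun he 1
          simp [hb, hc] at e0 e1
          exact hne ((e0.resolve_right h0).trans (e1.resolve_right h1).symm)
    rw [Finset.sum_congr rfl hs, Finset.sum_add_distrib, ← Finset.sum_filter, ← Finset.sum_filter, Finset.sum_const,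
      Finset.sum_const]
    rw [show (Finset.univ.erase (0 : Fin 2 → F)).filter (fun v => v 1 = 0) =
        Finset.univ.filter (fun v : Fin 2 → F => v ≠ 0 ∧ v 1 = 0) by ext v; simp,
      show (Finset.univ.erase (0 : Fin 2 → F)).filter (fun v => v 0 = 0) =
        Finset.univ.filter (fun v : Fin 2 → F => v ≠ 0 ∧ v 0 = 0) by ext v; simp, hax, hax, nsmul_eq_mul,
      nsmul_eq_mul, hqc]
    field_simp
  · rw [Finset.sum_eq_zero fun v hv => val_zero α fun e => hno e v (Finset.ne_of_mem_erase hv), mul_zero]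
  · have hs : ∀ v ∈ Finset.univ.erase (0 : Fin 2 → F), val α g v = if v 1 = 0 then α a else 0 := by
      intro v hv
      have hv0 := Finset.ne_of_mem_erase hv
      by_cases h1 : v 1 = 0
      · rw [if_pos h1]
        exact val_eq α hv0 (by rw [hmv]; funext i; fin_cases i <;> simp [hc, h1])
      · rw [if_neg h1]
        refine val_zero α fun e he => ?_
        rw [hmv] at he
        have e0 := congrFun he 0
        have e1 := congrFun he 1
        simp [hc] at e0 e1
        have he' : d = e := e1.resolve_right h1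
        have : b * v 1 = 0 := by rw [had, he'] at e0; linear_combination e0
        exact mul_ne_zero hb h1 this
    rw [Finset.sum_congr rfl hs, ← Finset.sum_filter, Finset.sum_const,
      show (Finset.univ.erase (0 : Fin 2 → F)).filter (fun v => v 1 = 0) =
        Finset.univ.filter (fun v : Fin 2 → F => v ≠ 0 ∧ v 1 = 0) by ext v; simp, hax, nsmul_eq_mul, hqc]
    field_simp
  · have hs : ∀ v ∈ Finset.univ.erase (0 : Fin 2 → F), val α g v = α a := fun v hv =>
      val_eq α (Finset.ne_of_mem_erase hv) (by rw [hmv]; funext i; fin_cases i <;> simp [hb, hc, had])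
    rw [Finset.sum_congr rfl hs, Finset.sum_const, Finset.card_erase_of_mem (Finset.mem_univ _), Finset.card_univ,
      Fintype.card_fun, Fintype.card_fin, nsmul_eq_mul, Nat.cast_sub (Nat.one_le_pow _ _ Fintype.card_pos),
      Nat.cast_pow, Nat.cast_one]
    field_simp
    ring

end CfsgLib.H10.PrincipalSeries
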