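import Cfsg.Agent.H10.RootTv
set_option autoImplicit false

/-!
Transvections in characteristic two as root involutions.
-/

namespace CfsgLib.RootTv

open Matrix

variable {ι k : Type*} [Field k] [Fintype ι] [DecidableEq ι] [CharP k 2]

/-- The set of transvections. -/
def Tvs (ι k : Type*) [Field k] [Fintype ι] [DecidableEq ι] : Set (Matrix.SpecialLinearGroup ι k) :=
  {t | ∃ v f : ι → k, v ≠ 0 ∧ f ≠ 0 ∧ f ⬝ᵥ v = 0 ∧ t = tv v f}

theorem tv_sq {v f : ι → k} (h : f ⬝ᵥ v = 0) : tv v f * tv v f = 1 := by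
  have h1 := tv_mul h (1 : k) 1
  rwa [one_smul, CharTwo.add_self_eq_zero, zero_smul, tv_zero] at h1

theorem tv_ne {v f : ι → k} (h : f ⬝ᵥ v = 0) (hv : v ≠ 0) (hf : f ≠ 0) : tv v f ≠ 1 := fun e =>
  (tv_inj_one h e).elim hv hf

theorem tvs_order {t : Matrix.SpecialLinearGroup ι k} (ht : t ∈ Tvs ι k) : orderOf t = 2 := by
  obtain ⟨v, f, hv, hf, h, rfl⟩ := ht
  exact orderOf_eq_prime (by rw [pow_two, tv_sq h]) (tv_ne h hv hf)

theorem tvs_conj {t : Matrix.SpecialLinearGroup ι k} (ht : t ∈ Tvs ι k) (g : Matrix.SpecialLinearGroup ι k) :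
    g * t * g⁻¹ ∈ Tvs ι k := by
  obtain ⟨v, f, hv, hf, h, rfl⟩ := ht
  refine ⟨_, _, fun e => hv ?_, fun e => hf ?_, incident_conj g h, conj_tv g h⟩
  · have := congrArg (fun x => ((g⁻¹ : Matrix.SpecialLinearGroup ι k) : Matrix ι ι k) *ᵥ x) e
    simp only [mulVec_zero, mulVec_mulVec, ← Matrix.SpecialLinearGroup.coe_mul, inv_mul_cancel,
      Matrix.SpecialLinearGroup.coe_one, one_mulVec] at this
    exact this
  · have := congrArg (fun x => x ᵥ* (g : Matrix ι ι k)) e
    simp only [zero_vecMul, vecMul_vecMul, ← Matrix.SpecialLinearGroup.coe_mul, inv_mul_cancel,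
      Matrix.SpecialLinearGroup.coe_one, vecMul_one] at this
    exact this

/-- Products of two non-commuting involutions in `SL₂` of characteristic two have odd order. -/
theorem sl_two_pow [Fintype k] {t : k} (ht : t ≠ 0) (M : Matrix.SpecialLinearGroup (Fin 2) k)
    (hM : (M : Matrix (Fin 2) (Fin 2) k) = !![1 + t, 1; t, 1]) :
    Odd (orderOf M) ∧ (Fintype.card k = 2 → orderOf M = 3) := by
  haveI : Fact (Nat.Prime 2) := ⟨Nat.prime_two⟩
  set X : Matrix (Fin 2) (Fin 2) k := !![1 + t, 1; t, 1] with hX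
  have hsq : X * X = t • X + 1 := by
    ext i j
    fin_cases i <;> fin_cases j <;> simp [hX, Matrix.mul_apply, Fin.sum_univ_two] <;>
      first
        | linear_combination (0 : k)
        | linear_combination t * (CharTwo.two_eq_zero (R := k))
        | linear_combination (CharTwo.two_eq_zero (R := k))
  have hform : ∀ j : ℕ, ∃ a b : k, X ^ (2 ^ j) = a • X + b • 1 := by
    intro j
    induction j with
    | zero => exact ⟨1, 0, by simp⟩
    | succ j ih =>
      obtain ⟨a, b, e⟩ := ih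
      refine ⟨a * a * t, a * a + b * b, ?_⟩
      rw [pow_succ, pow_mul, pow_two, e]
      have h2 : (a * b) • X + (b * a) • X = 0 := by rw [← add_smul, mul_comm b a, CharTwo.add_self_eq_zero, zero_smul]
      calc (a • X + b • 1) * (a • X + b • 1) = (a * a) • (X * X) + ((a * b) • X + (b * a) • X) + (b * b) • 1 := by
            simp only [mul_add, add_mul, smul_mul_assoc, mul_smul_comm, mul_one, one_mul, smul_smul]
            module
        _ = (a * a * t) • X + (a * a + b * b) • 1 := by rw [h2, hsq]; module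
  obtain ⟨e, -, hq⟩ := FiniteField.card k 2
  obtain ⟨a, b, hab⟩ := hform e
  have hcq : ∀ x : k, x ^ (2 ^ (e : ℕ)) = x := fun x => hq ▸ FiniteField.pow_card x
  set q := 2 ^ (e : ℕ) with hq'
  haveI : ExpChar (Matrix (Fin 2) (Fin 2) k) 2 := inferInstance
  have hXeq : (a • X + b • (1 : Matrix (Fin 2) (Fin 2) k)) * (a • X + b • 1) = t • (a • X + b • 1) + 1 := by
    rw [← hab]
    calc X ^ q * X ^ q = (X * X) ^ q := by rw [(Commute.refl X).mul_pow]
      _ = (t • X + 1) ^ q := by rw [hsq]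
      _ = (t • X) ^ q + 1 ^ q := add_pow_expChar_pow_of_commute _ _ (Commute.one_right _)
      _ = t • X ^ q + 1 := by rw [one_pow, smul_pow, hcq]
  have h01 := congrFun (congrFun hXeq 0) 1
  have h11 := congrFun (congrFun hXeq 1) 1
  simp [hX, Matrix.mul_apply, Fin.sum_univ_two] at h01 h11
  have hX0 : ∀ c : k, X ≠ c • 1 := fun c e => by
    have := congrFun (congrFun e 0) 1
    simp [hX] at this
  have hq2 : X ^ (q * q) = X := by
    have ha : a = 0 ∨ a = 1 := by
      have h2 : a * (a * t - t) = 0 := by linear_combination h01 - (a * a + a * b) * (CharTwo.two_eq_zero (R := k))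
      rcases mul_eq_zero.mp h2 with h3 | h3
      · exact Or.inl h3
      · exact Or.inr (mul_right_cancel₀ ht (by linear_combination h3))
    rcases ha with rfl | rfl
    · exfalso
      rw [zero_smul, zero_add] at hab
      have h2 : (X + b • 1) ^ q = 0 := by
        rw [add_pow_expChar_pow_of_commute _ _ ((Commute.one_right _).smul_right b), hab, smul_pow, one_pow, hcq,
          ← add_smul, CharTwo.add_self_eq_zero, zero_smul]
      have h3 : ((X + b • 1).trace) = 0 :=
        (Matrix.isNilpotent_trace_of_isNilpotent ⟨q, h2⟩).eq_zero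
      simp [hX, Matrix.trace_fin_two] at h3
      exact ht (by linear_combination h3 - (1 + b) * (CharTwo.two_eq_zero (R := k)))
    · rw [one_smul] at hab
      rw [pow_mul, hab, add_pow_expChar_pow_of_commute _ _ ((Commute.one_right _).smul_right b), hab, smul_pow,
        one_pow, hcq, add_assoc, ← add_smul, CharTwo.add_self_eq_zero, zero_smul, add_zero]
  have hMq : M ^ (q * q) = M := Subtype.ext (by
    show ((M ^ (q * q) : Matrix.SpecialLinearGroup (Fin 2) k) : Matrix (Fin 2) (Fin 2) k) = _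
    rw [Matrix.SpecialLinearGroup.coe_pow, hM, hq2])
  have hpos : 0 < q * q := by positivity
  have hdvd : orderOf M ∣ q * q - 1 := orderOf_dvd_of_pow_eq_one (mul_right_cancel (a := _) (b := M)
    (by rw [← pow_succ, Nat.sub_add_cancel hpos, hMq, one_mul]))
  have hodd : Odd (q * q - 1) := by
    have : Even q := Nat.even_pow.mpr ⟨even_two, e.ne_zero⟩
    exact Nat.Even.sub_odd hpos (this.mul_right q) odd_one
  refine ⟨hodd.of_dvd_nat hdvd, fun h2 => ?_⟩
  have hq2' : q = 2 := hq ▸ h2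
  rw [hq2'] at hdvd
  rcases (Nat.dvd_prime Nat.prime_three).mp hdvd with h3 | h3
  · exfalso
    rw [orderOf_eq_one_iff] at h3
    refine hX0 1 ?_
    rw [one_smul, ← hM, h3, Matrix.SpecialLinearGroup.coe_one]
  · exact h3

theorem odd_case [Fintype k] {v f w g : ι → k} (hfv : f ⬝ᵥ v = 0) (hgw : g ⬝ᵥ w = 0) (ha : f ⬝ᵥ w ≠ 0)
    (hb : g ⬝ᵥ v ≠ 0) :
    Odd (orderOf (tv v f * tv w g)) ∧ (Fintype.card k = 2 → orderOf (tv v f * tv w g) = 3) := by
  set a := f ⬝ᵥ w
  set b := g ⬝ᵥ v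
  set w' := a⁻¹ • w with hw'
  set g' := b⁻¹ • g with hg'
  have h1 : f ⬝ᵥ w' = 1 := by rw [hw', dotProduct_smul, smul_eq_mul, inv_mul_cancel₀ ha]
  have h2 : g' ⬝ᵥ v = 1 := by rw [hg', smul_dotProduct, smul_eq_mul, inv_mul_cancel₀ hb]
  have h3 : g' ⬝ᵥ w' = 0 := by rw [hg', hw', smul_dotProduct, dotProduct_smul, hgw, smul_zero, smul_zero]
  set φ := pSL hfv h1 h2 h3
  set t := a * b with ht'
  let U : Matrix.SpecialLinearGroup (Fin 2) k := Matrix.SpecialLinearGroup.transvection Fin.zero_ne_one (1 : k)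
  let L : Matrix.SpecialLinearGroup (Fin 2) k := Matrix.SpecialLinearGroup.transvection Fin.zero_ne_one.symm t
  have eU : φ U = tv v f := by
    rw [pSL_upper hfv h1 h2 h3] <;> simp [U, Matrix.SpecialLinearGroup.transvection_coe]
  have eL : φ L = tv w g := by
    rw [pSL_lower hfv h1 h2 h3] <;> simp [L, Matrix.SpecialLinearGroup.transvection_coe]
    rw [hw', hg', tv_smul_comm (by simp [hgw]), smul_smul, smul_smul, ht']
    congr 1
    rw [show b⁻¹ * (a * b) * a⁻¹ = 1 by field_simp, one_smul]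
  have hM : ((U * L : Matrix.SpecialLinearGroup (Fin 2) k) : Matrix (Fin 2) (Fin 2) k) = !![1 + t, 1; t, 1] := by
    rw [Matrix.SpecialLinearGroup.coe_mul]
    ext i j
    fin_cases i <;> fin_cases j <;>
      simp [U, L, Matrix.SpecialLinearGroup.transvection_coe, Matrix.mul_apply, Fin.sum_univ_two]
  obtain ⟨hodd, hthree⟩ := sl_two_pow (mul_ne_zero ha hb) (U * L) hM
  have hdvd : orderOf (tv v f * tv w g) ∣ orderOf (U * L) := by
    rw [← eU, ← eL, ← map_mul]; exact orderOf_map_dvd φ _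
  refine ⟨hodd.of_dvd_nat hdvd, fun hk => ?_⟩
  rw [hthree hk] at hdvd
  rcases (Nat.dvd_prime Nat.prime_three).mp hdvd with h4 | h4
  · exfalso
    rw [orderOf_eq_one_iff] at h4
    have hv : v ≠ 0 := fun e => hb (by simp [b, e])
    have h5 : tv v f = tv w g := by
      rw [← mul_inv_eq_one, inv_eq_of_mul_eq_one_right (tv_sq hgw)]; exact h4
    have h6 := congrArg (fun T : Matrix.SpecialLinearGroup ι k => (T : Matrix ι ι k) *ᵥ v) h5
    simp only [coe_tv hfv, coe_tv hgw, add_mulVec, one_mulVec, vecMulVec_mulVec, hfv, MulOpposite.op_zero,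
      zero_smul, add_zero, left_eq_add, op_smul_eq_smul] at h6
    rcases smul_eq_zero.mp h6 with h7 | h7
    · exact hb h7
    · exact ha (by simp [a, h7])
  · exact h4

theorem four_case {v f w g : ι → k} (hfv : f ⬝ᵥ v = 0) (hgw : g ⬝ᵥ w = 0) (ha : f ⬝ᵥ w ≠ 0)
    (hb : g ⬝ᵥ v = 0) (hv : v ≠ 0) (hg : g ≠ 0) :
    orderOf (tv v f * tv w g) = 4 ∧ (tv v f * tv w g) ^ 2 ∈ Tvs ι k := by
  have h1 := tv_commutator hfv hgw hb (1 : k) 1
  rw [one_smul, one_smul, one_mul, one_mul, inv_eq_of_mul_eq_one_right (tv_sq hfv),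
    inv_eq_of_mul_eq_one_right (tv_sq hgw)] at h1
  have h2 : (tv v f * tv w g) ^ 2 = tv ((f ⬝ᵥ w) • v) g := by rw [← h1, pow_two]; group
  have hm : g ⬝ᵥ (f ⬝ᵥ w) • v = 0 := by simp [hb]
  refine ⟨?_, by rw [h2]; exact ⟨_, _, smul_ne_zero ha hv, hg, hm, rfl⟩⟩
  rw [show 4 = 2 ^ (1 + 1) from rfl]
  refine orderOf_eq_prime_pow ?_ ?_
  · rw [pow_one, h2]; exact tv_ne hm (smul_ne_zero ha hv) hg
  · rw [show 2 ^ (1 + 1) = 2 * 2 from rfl, pow_mul, h2, pow_two, tv_sq hm]

variable [Fintype k]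

theorem tvs_pair {s t : Matrix.SpecialLinearGroup ι k} (hs : s ∈ Tvs ι k) (ht : t ∈ Tvs ι k) :
    s * t = t * s ∨ (Odd (orderOf (s * t)) ∧ (Fintype.card k = 2 → orderOf (s * t) = 3)) ∨
      (orderOf (s * t) = 4 ∧ (s * t) ^ 2 ∈ Tvs ι k) := by
  obtain ⟨v, f, hv, hf, hfv, rfl⟩ := hs
  obtain ⟨w, g, hw, hg, hgw, rfl⟩ := ht
  by_cases ha : f ⬝ᵥ w = 0 <;> by_cases hb : g ⬝ᵥ v = 0
  · exact Or.inl (by simpa using tv_commute hfv hgw ha hb (1 : k) 1)
  · obtain ⟨h1, h2⟩ := four_case hgw hfv hb ha hw hf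
    have e : (tv v f * tv w g) = (tv w g * tv v f)⁻¹ := by
      rw [_root_.mul_inv_rev, inv_eq_of_mul_eq_one_right (tv_sq hfv), inv_eq_of_mul_eq_one_right (tv_sq hgw)]
    refine Or.inr (Or.inr ⟨by rw [e, orderOf_inv, h1], ?_⟩)
    rw [e, inv_pow, inv_eq_of_mul_eq_one_right]
    · exact h2
    · rw [← pow_add, show 2 + 2 = 4 from rfl, ← h1, pow_orderOf_eq_one]
  · exact Or.inr (Or.inr (four_case hfv hgw ha hb hv hg))
  · exact Or.inr (Or.inl (odd_case hfv hgw ha hb))

theorem tvs_class (hι : 3 ≤ Fintype.card ι) :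
    Cfsg.IsRootInvolutionClass (Tvs ι k) ∧
      (Fintype.card k = 2 → Cfsg.IsThreeFourPlusTranspositionSet (Tvs ι k)) := by
  haveI : Nontrivial ι := Fintype.one_lt_card_iff_nontrivial.mp (by omega)
  have hset : Cfsg.IsRootInvolutionSet (Tvs ι k) := by
    refine ⟨fun d hd => tvs_order hd, ?_, fun d hd g => tvs_conj hd g, fun a ha b hb => ?_⟩
    · refine CfsgLib.SLn.eq_top_of_transvection _ fun i j hij c => ?_
      by_cases hc : c = 0
      · rw [show Matrix.SpecialLinearGroup.transvection hij c = 1 from Subtype.ext (by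
          simp [hc, Matrix.SpecialLinearGroup.transvection_coe])]
        exact one_mem _
      refine Subgroup.subset_closure ⟨c • Pi.single i 1, Pi.single j 1,
        smul_ne_zero hc (Pi.single_ne_zero_iff.2 one_ne_zero), Pi.single_ne_zero_iff.2 one_ne_zero,
        by simp [hij, hij.symm], Subtype.ext ?_⟩
      rw [coe_tv (by simp [hij, hij.symm]), Matrix.SpecialLinearGroup.transvection_coe]
      ext a b
      simp only [Matrix.transvection, Matrix.add_apply, Matrix.single_apply, vecMulVec_apply, Pi.smul_apply,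
        Pi.single_apply, smul_eq_mul]
      aesop
    · rcases tvs_pair ha hb with h1 | h1 | h1
      · exact Or.inl h1
      · exact Or.inr (Or.inl h1.1)
      · exact Or.inr (Or.inr h1)
  refine ⟨⟨hset, ?_, ?_⟩, fun hk => ⟨hset, fun a ha b hb ho => ?_⟩⟩
  · obtain ⟨i, j, hij⟩ := exists_pair_ne ι
    exact ⟨_, Pi.single i 1, Pi.single j 1, Pi.single_ne_zero_iff.2 one_ne_zero, Pi.single_ne_zero_iff.2 one_ne_zero,
      by simp [hij, hij.symm], rfl⟩
  · rintro _ ⟨v, f, hv, hf, hfv, rfl⟩ _ ⟨w, g, hw, hg, hgw, rfl⟩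
    obtain ⟨x, hx1, hx2⟩ := exists_move hι hv hf hfv hw hg hgw
    exact ⟨x, by rw [conj_tv x hfv, hx1, hx2]⟩
  · rcases tvs_pair ha hb with h1 | h1 | h1
    · refine Or.inl ?_
      have h2 : (a * b) ^ 2 = 1 := by
        rw [(Commute.mul_pow h1), ← tvs_order ha, pow_orderOf_eq_one, tvs_order ha, ← tvs_order hb,
          pow_orderOf_eq_one, mul_one]
      rcases (Nat.dvd_prime Nat.prime_two).mp (orderOf_dvd_of_pow_eq_one h2) with h3 | h3
      · exact h3
      · rw [h3] at ho; exact absurd ho (by decide)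
    · exact Or.inr (h1.2 hk)
    · rw [h1.1] at ho; exact absurd ho (by decide)

theorem tvs_eq (hι : 3 ≤ Fintype.card ι) {i j : ι} (hij : i ≠ j) :
    {t : Matrix.SpecialLinearGroup ι k | ∃ c : k, c ≠ 0 ∧ ∃ g : Matrix.SpecialLinearGroup ι k,
      ((g⁻¹ * t * g : Matrix.SpecialLinearGroup ι k) : Matrix ι ι k) = Matrix.transvection i j c} = Tvs ι k := by
  have hco : ∀ c : k, (tv (c • (Pi.single i 1 : ι → k)) (Pi.single j 1) : Matrix ι ι k) = Matrix.transvection i j c :=
    fun c => by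
      rw [coe_tv (by simp [hij, hij.symm])]
      ext a b
      simp only [Matrix.transvection, Matrix.add_apply, Matrix.single_apply, vecMulVec_apply, Pi.smul_apply,
        Pi.single_apply, smul_eq_mul]
      aesop
  have hmem : ∀ c : k, c ≠ 0 → tv (c • (Pi.single i 1 : ι → k)) (Pi.single j 1) ∈ Tvs ι k := fun c hc =>
    ⟨_, _, smul_ne_zero hc (Pi.single_ne_zero_iff.2 one_ne_zero), Pi.single_ne_zero_iff.2 one_ne_zero,
      by simp [hij, hij.symm], rfl⟩
  ext t
  constructor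
  · rintro ⟨c, hc, g, hg⟩
    have h1 : g⁻¹ * t * g = tv (c • (Pi.single i 1 : ι → k)) (Pi.single j 1) := Subtype.ext (hg.trans (hco c).symm)
    have h2 : t = g * (g⁻¹ * t * g) * g⁻¹ := by group
    rw [h2, h1]; exact tvs_conj (hmem c hc) g
  · intro ht
    obtain ⟨g, hg⟩ := (tvs_class hι).1.2.2 _ (hmem 1 one_ne_zero) t ht
    refine ⟨1, one_ne_zero, g, ?_⟩
    rw [hg, show g⁻¹ * (g * tv ((1 : k) • (Pi.single i 1 : ι → k)) (Pi.single j 1) * g⁻¹) * g =
      tv ((1 : k) • (Pi.single i 1 : ι → k)) (Pi.single j 1) by group]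
    exact hco 1

end CfsgLib.RootTv
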